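import Mathlib
import Cfsg.Agent.Loc.CGSmPi

/-! # Pushing up in a group of even characteristic: the module of a small block cannot have a
partner under an overgroup of the Sylow subgroup normalising the Baumann subgroup. -/

set_option autoImplicit false
set_option linter.unusedSectionVars false

namespace Cfsg.Agent.QT

open Cfsg Cfsg.Agent.GT Cfsg.Agent.Loc Cfsg.Agent.Loc.Mss Cfsg.Agent.Loc.PU Cfsg.Agent.Loc.Blk
  Cfsg.Agent.Loc.CG Subgroup
open scoped commutatorElement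

variable {G G' : Type*} [Group G] [Group G'] {q : ℕ}

/-- The abstract data of a small block `E` with module `W` and Baumann subgroup `B`. -/
structure Bk (q : ℕ) (B W E : Subgroup G) : Prop where
  pi : Pi q B W
  core : ⁅B ⊓ 𝐂[W], E⁆ ≤ W
  d3 : ∀ b ∈ B, ∀ w ∈ W, ⁅b, w⁆ ∈ 𝐂[E] → b ∈ 𝐂[W] ∨ w ∈ 𝐂[B]
  irr : ∀ X ≤ W, E ≤ 𝐍[X] → ¬ X ≤ 𝐂[E] → X = W
  res : pResidualOf 2 E = E
  bn : B ≤ 𝐍[E]
  oc : pCoreOf 2 E = W
  nc : ¬ W ≤ 𝐂[E]

theorem Bk.map [Finite G] {B W E : Subgroup G} (h : Bk q B W E) {f : G →* G'}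
    (hf : Function.Injective f) : Bk q (B.map f) (W.map f) (E.map f) := by
  refine ⟨(pi_map_iff hf).2 h.pi, ?_, ?_, ?_, ?_, map_norm_le f h.bn, ?_, ?_⟩
  · rw [← CG.map_inf_cent hf, ← Subgroup.map_commutator]
    exact map_mono h.core
  · rintro _ ⟨b, hb, rfl⟩ _ ⟨w, hw, rfl⟩ hc
    rw [← map_commutatorElement, mem_cent_map_iff hf] at hc
    rcases h.d3 b hb w hw hc with l | l
    · exact Or.inl (mem_cent_map l)
    · exact Or.inr (mem_cent_map l)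
  · intro X hX hn hc
    have e : (X.comap f).map f = X := map_comap_eq_self (hX.trans (map_le_range f W))
    rw [← e] at hX hn hc ⊢
    rw [h.irr _ ((map_le_map_iff_of_injective hf).1 hX) ((Mss.map_le_norm_iff hf).1 hn)
      fun l => hc (map_cent_le f l)]
  · rw [← map_pResidualOf, h.res]
  · rw [← map_pCoreOf_of_injective _ hf, h.oc]
  · exact fun l => h.nc ((Mss.map_le_cent_iff hf).1 l)

variable [Finite G]

namespace Bk

variable {B W E : Subgroup G} (h : Bk q B W E)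
include h

theorem wn : E ≤ 𝐍[W] := h.oc ▸ le_norm_core E

theorem d1 : ⁅B ⊓ 𝐂[W], B ⊓ 𝐂[W]⁆ ≤ 𝐂[E] := by
  have : ⁅⁅B ⊓ 𝐂[W], E⁆, B ⊓ 𝐂[W]⁆ ≤ ⊥ := (commutator_mono h.core le_rfl).trans
    (comm_eq_bot_iff'.2 inf_le_right).le
  exact comm_eq_bot_iff.1 (le_bot_iff.1 (three_subgroups (norm_normal _ _) (norm_normal _ _)
    (norm_normal _ _) this (by rwa [Subgroup.commutator_comm E])))

theorem d2 {r : G} (hr : r ∈ B ⊓ 𝐂[W]) : r * r ∈ 𝐂[E] := by
  refine mem_cent.2 fun e he => ?_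
  have h1 := h.core (commutator_mem_commutator hr he)
  have h2 := h.pi.sq _ h1
  have h3 := mem_cent.1 hr.2 _ h1
  rw [eq_comm, ← commutatorElement_eq_one_iff_mul_comm, ← h2]
  calc ⁅r * r, e⁆ = r * ⁅r, e⁆ * r⁻¹ * ⁅r, e⁆ := by
        simp only [commutatorElement_def]; group
    _ = _ := by rw [← h3]; group

theorem uniq {N N' : Subgroup G} (hN : Pi q B N) (hN' : Pi q B N') (a : ¬ N ≤ 𝐂[W])
    (b : ¬ N' ≤ 𝐂[W]) : B ⊓ 𝐂[N] ≤ 𝐂[N'] := by
  refine h.pi.inf_cent_le (D := 𝐂[E]) hN hN' a b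
    (fun r hr s hs => h.d1 (commutator_mem_commutator hr hs)) (fun r hr => h.d2 hr)
    fun b hb w hw e => ?_
  rcases h.d3 b hb w hw e with l | l
  · exact (mem_cent.1 l _ hw).symm
  · exact mem_cent.1 l _ hb

/-- a partner of `W` lies in no `E`-invariant 2-subgroup -/
theorem le_cent_of_le {N Q : Subgroup G} (hN : Pi q B N) (hQ : IsPGroup 2 Q) (hE : E ≤ 𝐍[Q])
    (hNQ : N ≤ Q) : N ≤ 𝐂[W] := by
  have h1 : ⁅N, E⁆ ≤ W := by
    rw [← h.oc]
    have a : ⁅N, E⁆ ≤ Q := (commutator_mono hNQ le_rfl).trans (comm_le_left hE)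
    exact le_core_of_norm (hQ.to_le a) (comm_le_right (hN.le.trans h.bn)) (ncl_right _ _)
  have h2 : E ≤ 𝐍[W ⊓ 𝐂[N]] := by
    refine norm_of_forall_cj_le fun e he => cj_le_iff.2 fun w hw =>
      ⟨conj_mem_of_norm (h.wn he) hw.1, mem_cent.2 fun n hn => ?_⟩
    have c1 : ⁅n⁻¹, e⁻¹⁆ ∈ W := h1 (commutator_mem_commutator (inv_mem hn) (inv_mem he))
    have c2 : Commute ⁅n⁻¹, e⁻¹⁆ w := mem_cent.1 (h.pi.comm hw.1) _ c1
    have c3 : Commute n w := mem_cent.1 hw.2 n hn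
    have e1 : e⁻¹ * n * e = n * ⁅n⁻¹, e⁻¹⁆ := by simp only [commutatorElement_def]; group
    have c4 : Commute (e⁻¹ * n * e) w := e1 ▸ c3.mul_left c2
    calc n * (e * w * e⁻¹) = e * (e⁻¹ * n * e * w) * e⁻¹ := by group
      _ = _ := by rw [c4.eq]; group
  by_cases hc : W ⊓ 𝐂[N] ≤ 𝐂[E]
  · intro n hn
    refine mem_cent.2 fun w hw => ?_
    have a : ⁅n, w⁆ ∈ W ⊓ 𝐂[N] :=
      ⟨comm_le_right (hN.le.trans h.pi.nm) (commutator_mem_commutator hn hw),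
        hN.comm (comm_le_left (h.pi.le.trans hN.nm) (commutator_mem_commutator hn hw))⟩
    rcases h.d3 n (hN.le hn) w hw (hc a) with l | l
    · exact mem_cent.1 l w hw
    · exact (mem_cent.1 l n (hN.le hn)).symm
  · exact cent_comm ((h.irr _ inf_le_left h2 hc).ge.trans inf_le_right)

/-- `W` lies in every `E`-invariant 2-subgroup `Q` with `1 ≠ [Q, E] ≤ W` -/
theorem W_le {Q : Subgroup G} (hQ : IsPGroup 2 Q) (hE : E ≤ 𝐍[Q]) (h1 : ⁅Q, E⁆ ≤ W)
    (h2 : ¬ E ≤ 𝐂[Q]) : W ≤ Q := by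
  have e := comm_res_res (p := 2) (L := E) hQ (by rwa [h.res])
  rw [h.res] at e
  have := h.irr _ h1 (ncl_right _ _) fun l => h2 (by
    rw [← comm_eq_bot_iff', ← e, comm_eq_bot_iff]; exact l)
  exact this.ge.trans (comm_le_left hE)

end Bk

theorem exists_odd_pow (g : G) : ∃ k, IsPGroup 2 (zpowers (g ^ (2 * k + 1))) := by
  have h0 : orderOf g ≠ 0 := (orderOf_pos g).ne'
  obtain ⟨n, m, hm, e⟩ := Nat.exists_eq_two_pow_mul_odd h0
  obtain ⟨k, rfl⟩ := hm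
  refine ⟨k, pg_iff.2 ?_⟩
  rintro _ ⟨j, rfl⟩
  refine ⟨n, ?_⟩
  have : (g ^ (2 * k + 1)) ^ 2 ^ n = 1 := by
    rw [← pow_mul, mul_comm, ← e, pow_orderOf_eq_one]
  show ((g ^ (2 * k + 1)) ^ j) ^ 2 ^ n = 1
  rw [← zpow_natCast, ← zpow_mul, mul_comm j, zpow_mul, zpow_natCast, this, one_zpow]

theorem push_core {T M B W E : Subgroup G}
    (hev : ∀ Y : Subgroup G, IsPGroup 2 Y → Y ≠ ⊥ → T ≤ 𝐍[Y] → ChP 2 𝐍[Y])
    (hT : Syl 2 T ⊤) (hTM : T ≤ M) (hMB : M ≤ 𝐍[B]) (hBT : B ≤ T) (h : Bk q B W E)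
    (hTW : ∀ t ∈ T, cj(t, W) ≤ 𝐂[W])
    (hQ : ∀ Q ≤ T, T ≤ 𝐍[Q] → E ≤ 𝐍[Q] → ⁅Q, E⁆ ≤ W) :
    ∃ U : Subgroup G, U ≠ ⊥ ∧ U ≤ B ∧ M ≤ 𝐍[U] ∧ E ≤ 𝐍[U] := by
  have hk : ∀ γ ∈ M, Bk q B cj(γ, W) cj(γ, E) := fun γ hγ => by
    have := h.map (cj_inj γ)
    rwa [cj_of_norm (hMB hγ)] at this
  by_cases hall : ∀ γ ∈ M, cj(γ, W) ≤ 𝐂[W]
  · refine ⟨ncl M W, fun e => h.nc ((le_ncl M W).trans (e.le.trans bot_le)),
      ncl_le h.pi.le hMB, le_norm_ncl M W, norm_of_comm_le le_rfl ?_⟩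
    exact ((commutator_mono (le_inf (ncl_le h.pi.le hMB) (ncl_le_iff.2 hall)) le_rfl).trans
      h.core).trans (le_ncl M W)
  exfalso
  push Not at hall
  obtain ⟨g₀, hg₀, hg₀'⟩ := hall
  -- the graph on `M`
  let A : G → G → Prop := fun α β => ¬ cj(β, W) ≤ 𝐂[cj(α, W)]
  have symm : ∀ {α β}, A α β → A β α := fun a l => a (cent_comm l)
  have mul : ∀ {α β} (s : G), A α β → A (s * α) (s * β) := fun s a l => a (by
    rwa [← cj_cj, ← cj_cj, ← cj_cent, cj_le_cj] at l)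
  have path : ∀ {α β γ δ}, α ∈ M → β ∈ M → γ ∈ M → δ ∈ M → A α β → A β γ → A γ δ → A α δ :=
    fun {α β γ δ} a b c d h1 h2 h3 l => h3 ((le_inf (hk δ d).pi.le l).trans
      ((hk β b).uniq (hk α a).pi (hk γ c).pi (symm h1) h2))
  have notT : ∀ {s t}, s ∈ T → t ∈ T → ¬ A s t := fun {s t} hs ht a => by
    have := mul s⁻¹ a
    rw [inv_mul_cancel] at this
    exact this (by rw [cj_one]; exact hTW _ (mul_mem (inv_mem hs) ht))
  have a0 : A 1 g₀ := by simpa only [A, cj_one] using hg₀'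
  have aodd : ∀ k, A 1 (g₀ ^ (2 * k + 1)) := fun k => by
    induction k with
    | zero => simpa using a0
    | succ k ih =>
      have b1 := mul (g₀ ^ (2 * k + 1)) a0
      have b2 := mul (g₀ ^ (2 * k + 1) * g₀) a0
      rw [mul_one] at b1 b2
      have := path (one_mem M) (pow_mem hg₀ _) (mul_mem (pow_mem hg₀ _) hg₀)
        (mul_mem (mul_mem (pow_mem hg₀ _) hg₀) hg₀) ih b1 b2
      rwa [← pow_succ, ← pow_succ] at this
  obtain ⟨k, hk2⟩ := exists_odd_pow g₀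
  have a1 := aodd k
  have hg : g₀ ^ (2 * k + 1) ∈ M := pow_mem hg₀ _
  generalize g₀ ^ (2 * k + 1) = g at hk2 a1 hg
  obtain ⟨m, hm, hm'⟩ := (hT.mono hTM le_top).conj_le hk2 (zpowers_le.2 hg)
  have hs : m * g * m⁻¹ ∈ T := hm' (conj_mem_cj (mem_zpowers g))
  -- the `T`-invariant subgroup `D`
  let D : Subgroup G := B ⊓ ⨅ t : T, (𝐂[cj((t : G), W)] ⊓ 𝐂[cj((t : G) * g, W)])
  have hD : ∀ t ∈ T, D ≤ 𝐂[cj(t, W)] ⊓ 𝐂[cj(t * g, W)] := fun t ht =>
    inf_le_right.trans (iInf_le_of_le ⟨t, ht⟩ le_rfl)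
  have hTD : T ≤ 𝐍[D] := by
    refine norm_inf (hTM.trans hMB) (norm_of_forall_cj_le fun s hs => le_iInf fun t => ?_)
    rw [cj_le_iff_le_inv, cj_inf, cj_cent, cj_cent, cj_cj, cj_cj, ← mul_assoc]
    exact iInf_le_of_le ⟨s⁻¹ * t, mul_mem (inv_mem hs) t.2⟩ le_rfl
  by_cases hab : ⁅D, D⁆ = ⊥
  · have key : ∀ α ∈ M, ¬ cj(α, W) ≤ D → ∀ s ∈ T, ¬ A α (s * α) := fun α hα hn s hs a => by
      have : ∃ t ∈ T, A t α ∨ A (t * g) α := by
        by_contra hc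
        push Not at hc
        refine hn (le_inf (hk α hα).pi.le (le_iInf fun t => le_inf ?_ ?_))
        · exact not_not.1 (hc t t.2).1
        · exact not_not.1 (hc t t.2).2
      obtain ⟨t, ht, b | b⟩ := this
      · exact notT ht (mul_mem hs ht) (path (hTM ht) hα (mul_mem (hTM hs) hα)
          (hTM (mul_mem hs ht)) b a (symm (mul s b)))
      · have c1 : A t (t * g) := by simpa only [mul_one] using mul t a1
        have c2 := path (hTM ht) (mul_mem (hTM ht) hg) hα (mul_mem (hTM hs) hα) c1 b a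
        exact notT ht (mul_mem hs ht) (path (hTM ht) (mul_mem (hTM hs) hα)
          (mul_mem (hTM hs) (mul_mem (hTM ht) hg)) (hTM (mul_mem hs ht)) c2 (symm (mul s b))
          (symm (mul s c1)))
    have a2 : A m (m * g * m⁻¹ * m) := by
      simpa only [mul_one, inv_mul_cancel_right] using mul m a1
    by_cases c : cj(m, W) ≤ D
    · refine key (m * g * m⁻¹ * m) (mul_mem (hTM hs) hm) (fun c' => a2 ?_) (m * g * m⁻¹)⁻¹
        (inv_mem hs) (by rw [inv_mul_cancel_left]; exact symm a2)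
      exact (c'.trans (comm_eq_bot_iff.1 hab)).trans (cent_anti c)
    · exact key m hm c _ hs a2
  · have hDT : ⁅D, D⁆ ≤ T := (comm_le_left le_normalizer).trans (inf_le_left.trans hBT)
    have hTY := norm_comm hTD hTD
    have hC := hev _ (hT.pg.to_le hDT) hab hTY
    have e1 : E ≤ 𝐍[⁅D, D⁆] := by
      have : D ≤ B ⊓ 𝐂[W] := le_inf inf_le_left (by
        have := (hD 1 (one_mem T)).trans inf_le_left
        rwa [cj_one] at this)
      exact norm_of_cent (cent_comm ((commutator_mono this this).trans h.d1))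
    have e2 : cj(g, E) ≤ 𝐍[⁅D, D⁆] := by
      have : D ≤ B ⊓ 𝐂[cj(g, W)] := le_inf inf_le_left (by
        have := (hD 1 (one_mem T)).trans inf_le_right
        rwa [one_mul] at this)
      exact norm_of_cent (cent_comm ((commutator_mono this this).trans (hk g hg).d1))
    have hQT : pCoreOf 2 𝐍[⁅D, D⁆] ≤ T := (hT.mono hTY le_top).core_le
    have hEQ : E ≤ 𝐍[pCoreOf 2 𝐍[⁅D, D⁆]] := e1.trans (le_norm_core _)
    have hWQ := h.W_le (pg_core _) hEQ (hQ _ hQT (hTY.trans (le_norm_core _)) hEQ) fun l => by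
      have : IsPGroup 2 E := (pg_core _).to_le (hC.le_core e1 l)
      have e := res_eq_bot_of_pg this
      rw [h.res] at e
      exact h.nc (by rw [e, cent_bot]; exact le_top)
    have := (hk g hg).le_cent_of_le h.pi (pg_core _) (e2.trans (le_norm_core _)) hWQ
    exact symm a1 (by rwa [cj_one])

end Cfsg.Agent.QT
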