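import Mathlib
import Cfsg.Agent.QT.PushCore
import Cfsg.Agent.Loc.CGGl3

/-! # Pushing up in a group of even characteristic. -/

set_option autoImplicit false
set_option linter.unusedSectionVars false

namespace Cfsg.Agent.QT

open Cfsg Cfsg.Agent.GT Cfsg.Agent.Loc Cfsg.Agent.Loc.Mss Cfsg.Agent.Loc.PU Cfsg.Agent.Loc.Blk
  Cfsg.Agent.Loc.CG Subgroup
open scoped commutatorElement

variable {G : Type*} [Group G] [Finite G]

theorem exists_bk (hG : 𝐂[pCore 2 G] ≤ pCore 2 G) (S : Sylow 2 G) {M : Subgroup G}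
    (hC : cStarOf 2 (S : Subgroup G) ≤ M) (hM : ¬ ⊤ ≤ M) :
    ∃ (q : ℕ) (W E : Subgroup G), Bk q 𝐁[2, (S : Subgroup G)] W E ∧ ¬ E ≤ M ∧
      W ≤ omegaOneCenter 2 (pCore 2 G) ∧ ∀ Q : Subgroup G, IsPGroup 2 Q →
        𝐁[2, (S : Subgroup G)] ≤ 𝐍[Q] → E ≤ 𝐍[Q] → ⁅Q, E⁆ ≤ W := by
  obtain ⟨E, A₀, K, _, _, ρ, φ, h, -, hE⟩ := exists_sdw hG S le_top hC hM
  have hB := blk_of hG S h.blk
  have hO : 𝐎[2, E] = 𝐖[2, E] := by
    rcases hB.cases with ⟨F, _, _, -, e | e⟩ | ⟨m, -, e⟩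
    · exact e.trans (hB.W₀_eq e).symm
    · exact absurd e.three (by norm_num)
    · exact e.trans (hB.W₀_eq e).symm
  refine ⟨Nat.card K, 𝐖[2, E], E, ⟨h.pi hB, h.core.trans hO.le,
    fun b hb w hw e => h.cases_of_comm hB hb hw e, fun X hX hn hc => hB.eq_W hX hn hc, hB.res,
    hB.B_norm, hO, hB.not_W_le⟩, hE, hB.W_le_V, fun Q hQ h1 h2 => ?_⟩
  rw [← hO]
  exact le_core_of_norm (hQ.to_le (comm_le_left h2)) (comm_le_right (hB.norm_of_pg hQ h1 h2))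
    (ncl_right _ _)

theorem norm_le_of_char {C R : Subgroup G} (h1 : C ≤ R) (h : (C.subgroupOf R).Characteristic) :
    𝐍[R] ≤ 𝐍[C] := by
  have := normalizer_le_normalizer_map_subtype R (C.subgroupOf R)
  rwa [map_subgroupOf_eq_of_le h1] at this

/-- `R` is Sylow in the `T`-invariant subgroup `H` of characteristic 2, `C*(H, R) ≤ M'`, `H ≰ M'`,
and `T ≤ M ≤ N(B(R))`.  Then `H ∩ N(U) ≰ M'` for some `M`-invariant `1 ≠ U ≤ B(R)`. -/
theorem push_main {T M R H M' : Subgroup G}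
    (hev : ∀ Y : Subgroup G, IsPGroup 2 Y → Y ≠ ⊥ → T ≤ 𝐍[Y] → ChP 2 𝐍[Y])
    (hT : Syl 2 T ⊤) (hTM : T ≤ M) (hR : Syl 2 R H) (hRT : R ≤ T) (hTH : T ≤ 𝐍[H])
    (hch : ChP 2 H) (hMB : M ≤ 𝐍[𝐁[2, R]]) (hC1 : H ⊓ 𝐂[ΩZ[2, R]] ≤ M')
    (hC2 : ∀ C ≤ 𝐁[2, R], C ≠ ⊥ → 𝐍[𝐁[2, R]] ≤ 𝐍[C] → H ⊓ 𝐍[C] ≤ M') (hH : ¬ H ≤ M') :
    ∃ U : Subgroup G, U ≠ ⊥ ∧ U ≤ 𝐁[2, R] ∧ M ≤ 𝐍[U] ∧ ¬ H ⊓ 𝐍[U] ≤ M' := by
  obtain ⟨S, -, hS⟩ := hR.exists_sylow
  have hi := H.subtype_injective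
  obtain ⟨q, W, E, h, hE, hW, hQ⟩ := exists_bk (chP_iff.2 hch) S (M := M'.subgroupOf H)
    (sup_le (fun x hx => hC1 ⟨x.2, by
      have := mem_cent_map (f := H.subtype) hx
      rwa [oc_eq, CG.map_oz hi, hS] at this⟩) (iSup_le fun C x hx => by
      have a1 : C.1.map H.subtype ≤ 𝐁[2, R] := by
        rw [← hS, ← map_bB hi]; exact map_mono C.2.1
      have a2 := char_map hi C.2.2.2
      rw [map_bB hi, hS] at a2
      exact hC2 _ a1 (fun e => C.2.2.1 ((map_eq_bot_iff_of_injective _ hi).1 e))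
        (norm_le_of_char a1 a2) ⟨x.2, map_norm_le H.subtype le_rfl (mem_map_of_mem _ hx)⟩))
    (fun l => hH fun x hx => l (mem_top (⟨x, hx⟩ : H)))
  have h' := h.map hi
  rw [map_bB hi, hS] at h'
  have hV : W.map H.subtype ≤ ΩZ[2, pCoreOf 2 H] := by
    refine (map_mono hW).trans ?_
    rw [oc_eq, CG.map_oz hi]
    exact le_rfl
  obtain ⟨U, h1, h2, h3, h4⟩ := push_core hev hT hTM hMB ((bB_le R).trans hRT) h'
    (fun t ht => (cj_le_of_norm hV (norm_oz (norm_core hTH) ht)).trans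
      ((oc_comm _).trans (cent_anti hV))) (fun Q hQT hTQ hEQ => by
    have hE' : E.map H.subtype ≤ H := map_subtype_le E
    have a1 : ⁅Q, E.map H.subtype⁆ ≤ Q ⊓ H := le_inf (comm_le_left hEQ)
      ((commutator_mono le_rfl hE').trans (comm_le_right (hQT.trans hTH)))
    have a2 := comm_res_res (p := 2) (L := E.map H.subtype) (hT.pg.to_le hQT) (by rwa [h'.res])
    rw [h'.res] at a2
    rw [← a2]
    refine (commutator_mono a1 le_rfl).trans ?_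
    have e : ((Q ⊓ H).subgroupOf H).map H.subtype = Q ⊓ H := map_subgroupOf_eq_of_le inf_le_right
    rw [← e, ← Subgroup.map_commutator]
    refine map_mono (hQ _ ((hT.pg.to_le (inf_le_left.trans hQT)).comap_subtype) ?_ ?_)
    · rw [← Mss.map_le_norm_iff hi, e, map_bB hi, hS]
      exact norm_inf (((bB_le R).trans hRT).trans hTQ) (norm_of_le ((bB_le R).trans hR.le))
    · rw [← Mss.map_le_norm_iff hi, e]
      exact norm_inf hEQ (norm_of_le hE'))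
  exact ⟨U, h1, h2, h3, fun l => hE fun x hx => l ⟨x.2, h4 (mem_map_of_mem _ hx)⟩⟩

theorem hev_of_even (hE : IsOfEvenCharacteristic G) (T : Sylow 2 G) (Y : Subgroup G)
    (h1 : IsPGroup 2 Y) (h2 : Y ≠ ⊥) (h3 : (T : Subgroup G) ≤ 𝐍[Y]) : ChP 2 𝐍[Y] :=
  chP_iff.1 (hE _ ⟨Y, h1, h2, rfl⟩ ⟨T, h3⟩)

theorem chP_of_even (hE : IsOfEvenCharacteristic G) (T : Sylow 2 G) {H : Subgroup G}
    (h1 : pCore 2 H ≠ ⊥) (h2 : (T : Subgroup G) ≤ H) : ChP 2 H := by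
  have h3 : pCoreOf 2 H ≠ ⊥ := fun e => h1 ((map_eq_bot_iff_of_injective _ H.subtype_injective).1 e)
  exact (hev_of_even hE T _ (pg_core H) h3 (h2.trans (le_norm_core H))).of_syl_le
    (Syl.of_sylow_le T (h2.trans (le_norm_core H))) h2 (le_norm_core H)

end Cfsg.Agent.QT
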