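import Mathlib
import Cfsg.Agent.QT.Defs
import Cfsg.Agent.QT.Push
import Cfsg.Agent.GT.PGroupRank

/-! # QT: subgroups of a simple QTKE-group -/

set_option autoImplicit false
open Cfsg Subgroup

namespace Cfsg.Agent.QT

open Cfsg.Agent.GT Cfsg.Agent.Loc Cfsg.Agent.Loc.Mss

variable {G : Type*} [Group G] [Finite G]

omit [Finite G] in
theorem mem_calH_iff {H : Subgroup G} : H ∈ calH G ↔ pCoreOf 2 H ≠ ⊥ :=
  not_congr (map_eq_bot_iff_of_injective _ H.subtype_injective).symm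

theorem isTwoLocal_core {H : Subgroup G} (hH : H ∈ calH G) : IsTwoLocal 𝐍[pCoreOf 2 H] :=
  ⟨_, pg_core H, mem_calH_iff.1 hH, rfl⟩

omit [Finite G] in
theorem mem_calH_of_norm {H Y : Subgroup G} (hY : IsPGroup 2 Y) (h1 : Y ≠ ⊥) (h2 : Y ≤ H)
    (h3 : H ≤ 𝐍[Y]) : H ∈ calH G :=
  mem_calH_iff.2 fun e => h1 (le_bot_iff.1 ((le_pCoreOf h2 h3 hY).trans e.le))

omit [Finite G] in
theorem mem_calH_of_isTwoLocal {M : Subgroup G} (hM : IsTwoLocal M) : M ∈ calH G := by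
  obtain ⟨Y, h1, h2, rfl⟩ := hM
  exact mem_calH_of_norm h1 h2 le_normalizer le_rfl

theorem sqt_of_calH (hQ : IsQTKE G) {H : Subgroup G} (hH : H ∈ calH G) :
    IsStronglyQuasithin H := fun p hp h2 =>
  PRankLE.of_le (hQ.1 p hp h2 _ (isTwoLocal_core hH)) (le_norm_core H)

theorem kgroup_of_calH [IsSimpleGroup G] (hG : ¬ IsMulCommutative G) (hQ : IsQTKE G)
    {H : Subgroup G} (hH : H ∈ calH G) : IsKGroup H := by
  refine hQ.2.1 H ?_
  rintro rfl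
  have hn : (pCoreOf 2 (⊤ : Subgroup G)).Normal := normal_of_top (le_norm_core ⊤)
  have e := hn.eq_bot_or_eq_top.resolve_left (mem_calH_iff.1 hH)
  have h1 : IsPGroup 2 G := pg_top.1 (e ▸ pg_core (⊤ : Subgroup G))
  have := h1.isNilpotent
  exact hG ⟨⟨IsSimpleGroup.comm_iff_isSolvable.2 inferInstance⟩⟩

theorem charTwo_of_calHOver (hQ : IsQTKE G) (T : Sylow 2 G) {H : Subgroup G}
    (hH : H ∈ calHOver (T : Subgroup G)) : IsOfCharacteristicTwo H :=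
  chP_iff.2 (chP_of_even hQ.2.2 T hH.1 hH.2)

theorem exists_maxTwoLocal_ge {M : Subgroup G} (hM : IsTwoLocal M) :
    ∃ N, IsMaximalTwoLocal N ∧ M ≤ N := by
  obtain ⟨N, h1, h2⟩ := Finite.exists_le_maximal (p := fun N : Subgroup G => IsTwoLocal N) hM
  exact ⟨N, ⟨h2.1, fun K hK h3 => le_antisymm (h2.2 hK h3) h3⟩, h1⟩

/-- If `1 ≠ Y ≤ U`, `T ≤ U ∈ ℋ` and every member of `ℋ(U)` normalises `Y`, then
`ℳ(U) = {N_G(Y)}`. -/
theorem maxTwoLocals_eq (hQ : IsQTKE G) (T : Sylow 2 G) {U Y : Subgroup G}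
    (hU : U ∈ calHOver (T : Subgroup G)) (hY : Y ≠ ⊥) (hYU : Y ≤ U)
    (h : ∀ H ∈ calHOver U, H ≤ normalizer (Y : Set G)) :
    maxTwoLocalsContaining U = {normalizer (Y : Set G)} := by
  have hUY : U ≤ 𝐍[Y] := h U ⟨hU.1, le_rfl⟩
  have hc : ChP 2 Y := (chP_of_even hQ.2.2 T hU.1 hU.2).of_normal hYU hUY
  have h1 : pCoreOf 2 Y ≠ ⊥ := fun e => hY (le_bot_iff.1 (by
    have := hc.le_core le_rfl (by rw [e, cent_bot]; exact le_top)
    rwa [e] at this))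
  obtain ⟨M, hM, h2⟩ := exists_maxTwoLocal_ge (isTwoLocal_core (mem_calH_iff.2 h1))
  have h3 : 𝐍[Y] ≤ M := (norm_core le_rfl).trans h2
  have h4 : M = 𝐍[Y] :=
    le_antisymm (h M ⟨mem_calH_of_isTwoLocal hM.1, hUY.trans h3⟩) h3
  subst h4
  ext N
  refine ⟨fun hN => ?_, ?_⟩
  · exact (hN.1.2 _ hM.1 (h N ⟨mem_calH_of_isTwoLocal hN.1.1, hN.2⟩)).symm
  · rintro rfl
    exact ⟨hM, hUY⟩

end Cfsg.Agent.QT
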