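import Mathlib
import Cfsg.Agent.QT.Push
import Cfsg.Agent.GT.ThompsonOffender

/-! # Counting lemmas for the qrc-lemma. -/

set_option autoImplicit false
set_option linter.unusedSectionVars false

namespace Cfsg.Agent.QT

open Cfsg Cfsg.Agent.GT Cfsg.Agent.Loc Cfsg.Agent.Loc.Mss Cfsg.Agent.Loc.Blk Subgroup
open scoped commutatorElement

variable {G G' : Type*} [Group G] [Group G']

/-- `B` acts nontrivially on `V` with `|V : C_V(B)| ≤ |B : C_B(V)|²`. -/
def TwoF (V B : Subgroup G) : Prop :=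
  ¬ B ≤ 𝐂[V] ∧ (𝐂[B]).relIndex V ≤ (𝐂[V]).relIndex B ^ 2

theorem relIndex_cent_map {f : G →* G'} (hf : Function.Injective f) (A B : Subgroup G) :
    (𝐂[A.map f]).relIndex (B.map f) = (𝐂[A]).relIndex B := by
  rw [← inf_relIndex_right, inf_comm, ← CG.map_inf_cent hf, relIndex_map_map_of_injective _ _ hf,
    inf_comm, inf_relIndex_right]

theorem relIndex_cent_cj (A B : Subgroup G) (g : G) :
    (𝐂[cj(g, A)]).relIndex B = (𝐂[A]).relIndex cj(g⁻¹, B) := by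
  conv_lhs => rw [← cj_cj_inv B g]
  exact relIndex_cent_map (cj_inj g) _ _

theorem TwoF.map {V B : Subgroup G} (h : TwoF V B) {f : G →* G'} (hf : Function.Injective f) :
    TwoF (V.map f) (B.map f) :=
  ⟨fun l => h.1 ((map_le_cent_iff hf).1 l), by
    rw [relIndex_cent_map hf, relIndex_cent_map hf]; exact h.2⟩

variable [Finite G]

theorem rI_ne (A B : Subgroup G) : A.relIndex B ≠ 0 := index_ne_zero_of_finite

theorem rI_pos (A B : Subgroup G) : 0 < A.relIndex B := Nat.pos_of_ne_zero (rI_ne A B)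

theorem rI_right {A B C : Subgroup G} (h : B ≤ C) : A.relIndex B ≤ A.relIndex C :=
  relIndex_le_of_le_right h (rI_ne _ _)

theorem rI_left {A B C : Subgroup G} (h : A ⊓ C ≤ B) : B.relIndex C ≤ A.relIndex C := by
  rw [← inf_relIndex_right A]
  exact relIndex_le_of_le_left h (rI_ne _ _)

theorem rI_two {A B : Subgroup G} (h : ¬ B ≤ A) : 2 ≤ A.relIndex B := by
  have h1 := rI_pos A B
  have h2 : A.relIndex B ≠ 1 := fun e => h (relIndex_eq_one.1 e)
  omega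

/-- `|C : A ∩ C| = |C : B ∩ C| |B ∩ C : A ∩ C|` for `A ∩ C ≤ B`. -/
theorem rI_mul {A B C : Subgroup G} (h : A ⊓ C ≤ B) :
    A.relIndex C = A.relIndex (B ⊓ C) * B.relIndex C := by
  rw [← inf_relIndex_right A C, ← inf_relIndex_right B C,
    ← relIndex_mul_relIndex (A ⊓ C) (B ⊓ C) C (le_inf h inf_le_right) inf_le_right]
  congr 1
  rw [← inf_relIndex_right A (B ⊓ C), ← inf_relIndex_right (A ⊓ C) (B ⊓ C)]
  congr 1
  exact le_antisymm (le_inf (inf_le_left.trans inf_le_left) inf_le_right)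
    (le_inf (le_inf inf_le_left (inf_le_right.trans inf_le_right)) inf_le_right)

theorem rI_le_mul (A B C : Subgroup G) : A.relIndex C ≤ A.relIndex (B ⊓ C) * B.relIndex C := by
  have := rI_mul (A := A ⊓ B) (B := B) (C := C) (inf_le_left.trans inf_le_right)
  refine (rI_left (A := A ⊓ B) (inf_le_left.trans inf_le_left)).trans (this.trans_le ?_)
  exact Nat.mul_le_mul_right _ (rI_left (le_inf inf_le_left (inf_le_right.trans inf_le_left)))

theorem rI_card (A B : Subgroup G) : A.relIndex B * Nat.card ↥(B ⊓ A) = Nat.card B := by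
  rw [mul_comm, inf_comm, ← inf_relIndex_right, ← relIndex_bot_left, ← relIndex_bot_left,
    relIndex_mul_relIndex _ _ _ bot_le inf_le_right]

theorem TwoF.of_le {V B : Subgroup G} (h : ¬ B ≤ 𝐂[V])
    (h' : (𝐂[B]).relIndex V ≤ (𝐂[V]).relIndex B) : TwoF V B :=
  ⟨h, h'.trans (Nat.le_self_pow (by norm_num) _)⟩

/-- A 2F-subgroup on a product yields one on a factor. -/
theorem TwoF.chain {ι : Type*} {Z : ι → Subgroup G} {B : Subgroup G} (h : TwoF (⨆ i, Z i) B) :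
    ∃ i, ∃ D ≤ B, TwoF (Z i) D := by
  induction hn : Nat.card B using Nat.strong_induction_on generalizing B with
  | _ n ih =>
  obtain ⟨i, hi⟩ : ∃ i, ¬ B ≤ 𝐂[Z i] := by
    by_contra hc
    push Not at hc
    exact h.1 (le_cent_iSup hc)
  by_cases h1 : (𝐂[B]).relIndex (Z i) ≤ (𝐂[Z i]).relIndex B ^ 2
  · exact ⟨i, B, le_rfl, hi, h1⟩
  set U := ⨆ i, Z i with hU
  set D := 𝐂[Z i] ⊓ B with hD
  have e1 := rI_mul (A := 𝐂[B]) (B := 𝐂[D]) (C := U) (inf_le_left.trans (cent_anti inf_le_right))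
  have e2 := rI_mul (A := 𝐂[U]) (B := 𝐂[Z i]) (C := B)
    (inf_le_left.trans (cent_anti (le_iSup Z i)))
  have e3 : (𝐂[B]).relIndex (Z i) ≤ (𝐂[B]).relIndex (𝐂[D] ⊓ U) :=
    rI_right (le_inf (cent_comm inf_le_left) (le_iSup Z i))
  have h2 := h.2
  rw [e1, e2, ← hD, mul_pow] at h2
  have h3 : (𝐂[D]).relIndex U < (𝐂[U]).relIndex D ^ 2 := by
    by_contra hc
    have := rI_pos (𝐂[D]) U
    have := Nat.mul_le_mul (not_lt.1 hc) ((not_le.1 h1).trans_le e3)
    nlinarith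
  have h4 : ¬ D ≤ 𝐂[U] := fun l => by
    rw [relIndex_eq_one.2 l] at h3
    have := rI_pos (𝐂[D]) U
    omega
  obtain ⟨j, E, h5, h6⟩ := ih _ (hn ▸ GT.card_lt_of_lt (lt_of_le_of_ne (inf_le_right : D ≤ B)
    fun e => hi (e ▸ inf_le_left))) ⟨h4, h3.le⟩ rfl
  exact ⟨j, E, h5.trans inf_le_right, h6⟩

/-- A pairing into a group of order two. -/
theorem pairing_le {V Z X : Subgroup G} (hX : X ≤ Z) (hi : X.relIndex Z = 2) (hZV : Z ≤ 𝐂[V])
    {B : Subgroup G} (hB : ⁅B, V⁆ ≤ Z) (hZB : Z ≤ 𝐂[B]) :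
    (cmod B X).relIndex V ≤ (𝐂[V]).relIndex B := by
  have hVX : V ≤ 𝐍[X] := norm_of_cent (cent_comm (hX.trans hZV))
  induction hn : Nat.card B using Nat.strong_induction_on generalizing B with
  | _ n ih =>
  by_cases h0 : B ≤ 𝐂[V]
  · rw [relIndex_eq_one.2 (le_cmod.2 ⟨hVX, (comm_eq_bot_iff.2 h0).trans_le bot_le⟩)]
    exact rI_pos _ _
  obtain ⟨D, ⟨hD1, hD2⟩, hD⟩ := (Set.toFinite {D : Subgroup G | 𝐂[V] ⊓ B ≤ D ∧ D < B}).exists_maximal
    ⟨𝐂[V] ⊓ B, le_rfl, lt_of_le_of_ne inf_le_right fun e => h0 (e ▸ inf_le_left)⟩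
  obtain ⟨b, hb, hbD⟩ := SetLike.exists_of_lt hD2
  have e : D ⊔ zpowers b = B := by
    by_contra hc
    exact hbD (hD ⟨hD1.trans le_sup_left, lt_of_le_of_ne (sup_le hD2.le (zpowers_le.2 hb)) hc⟩
      le_sup_left (mem_sup_right (mem_zpowers b)))
  have h1 := ih _ (hn ▸ GT.card_lt_of_lt hD2) ((commutator_mono hD2.le le_rfl).trans hB)
    (hZB.trans (cent_anti hD2.le)) rfl
  have hc : ∀ v ∈ V, ⁅b, v⁆ ∈ Z := fun v hv => hB (commutator_mem_commutator hb hv)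
  let φ : V →* Z :=
    { toFun := fun v => ⟨⁅b, (v : G)⁆, hc v v.2⟩
      map_one' := Subtype.ext (by simp)
      map_mul' := fun v w => Subtype.ext (by
        have := mem_cent.1 (hZV (hc w w.2)) v v.2
        simp only [coe_mul, MulMemClass.mk_mul_mk]
        rw [show ⁅b, (v : G) * w⁆ = ⁅b, (v : G)⁆ * (v * ⁅b, (w : G)⁆) * (v : G)⁻¹ by
          simp only [commutatorElement_def]; group, this]
        group) }
  have h2 : (cmod (zpowers b) X).relIndex V ≤ 2 := by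
    have a1 : (X.subgroupOf Z).comap φ ≤ (cmod (zpowers b) X).subgroupOf V := fun v hv => by
      have hbX : zpowers b ≤ 𝐍[X] := (zpowers_le.2 hb).trans (norm_of_cent (cent_comm (hX.trans hZB)))
      have : zpowers b ≤ cmod (zpowers (v : G)) X := zpowers_le.2 ⟨hbX (mem_zpowers b), fun u hu => by
        obtain ⟨k, rfl⟩ := hu
        have a2 : v ^ k ∈ (X.subgroupOf Z).comap φ := zpow_mem hv k
        rw [← commutatorElement_inv]
        exact inv_mem a2⟩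
      refine ⟨hVX v.2, fun u hu => ?_⟩
      rw [← commutatorElement_inv]
      exact inv_mem ((this hu).2 v (mem_zpowers _))
    refine (index_antitone a1).trans ?_
    rw [index_comap, ← hi]
    exact (rI_right le_top).trans_eq (relIndex_top_right _)
  have h3 : cmod D X ⊓ cmod (zpowers b) X ⊓ V ≤ cmod B X := by
    have hBX : B ≤ 𝐍[X] := norm_of_cent (cent_comm (hX.trans hZB))
    refine le_cmod.2 ⟨inf_le_right.trans hVX, ?_⟩
    conv_lhs => rw [← e]
    exact sup_comm_le (hD2.le.trans hBX) ((zpowers_le.2 hb).trans hBX)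
      ((commutator_mono le_rfl (inf_le_left.trans inf_le_left)).trans (comm_cmod_le _ _))
      ((commutator_mono le_rfl (inf_le_left.trans inf_le_right)).trans (comm_cmod_le _ _))
  refine (rI_left h3).trans (relIndex_inf_le.trans ?_)
  rw [rI_mul (A := 𝐂[V]) (B := D) (C := B) hD1, inf_eq_left.2 hD2.le]
  exact Nat.mul_le_mul h1 (h2.trans (rI_two (not_le_of_gt hD2)))

/-- Thompson replacement: a member of `𝒜(P)` acting quadratically and nontrivially. -/
theorem exists_quad {p : ℕ} [Fact p.Prime] {P V A : Subgroup G} (hA : A ∈ abFam p P) (hVP : V ≤ P)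
    (hV : IsElementaryAbelian p V) (hAV : A ≤ 𝐍[V]) (h : ¬ A ≤ 𝐂[V]) :
    ∃ A' ∈ abFam p P, A' ≤ V ⊔ A ∧ ¬ A' ≤ 𝐂[V] ∧ ⁅⁅V, A'⁆, A'⁆ = ⊥ := by
  have hc : V ≤ 𝐂[V] := le_centralizer_iff_isMulCommutative.2 hV.1
  have h1 : ⁅V, A⁆ ≤ V := comm_le_left hAV
  have h2 := off_ne_bot (p := p) hV.isPGroup hV.1 hAV (by
      rw [comm_eq_bot_iff.2 (le_centralizer_iff_isMulCommutative.2 (abFam_comm hA))]; exact bot_le)
    (fun a ha => ⟨1, by rw [pow_one, abFam_pow hA a ha]; exact one_mem _⟩)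
    (fun B hB => offM_le_of_abFam hA hVP hV.1 hV.2 hB) le_rfl fun e => h (comm_eq_bot_iff'.1 e)
  refine ⟨_, abFam_off_replace hA hVP hV.1 hV.2 hAV, sup_le (h1.trans le_sup_left)
    (inf_le_left.trans le_sup_right), fun l => h2 (comm_eq_bot_iff'.2 (le_sup_right.trans l)), ?_⟩
  have h3 : ⁅V, ⁅V, A⁆ ⊔ A ⊓ 𝐂[⁅V, A⁆]⁆ ≤ ⁅V, A⁆ :=
    comm_sup_le (norm_of_le le_rfl) (inf_le_left.trans (ncl_right _ _))
      ((comm_eq_bot_iff'.2 (h1.trans hc)).trans_le bot_le) (commutator_mono le_rfl inf_le_left)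
  exact comm_eq_bot_iff'.2 ((sup_le (h1.trans (hc.trans (cent_anti h1))) inf_le_right).trans
    (cent_anti h3))

/-- Members of `𝒜(P)` are offenders. -/
theorem rI_le_of_abFam {p : ℕ} {P V A : Subgroup G} (hA : A ∈ abFam p P) (hVP : V ≤ P)
    (hV : IsElementaryAbelian p V) : (𝐂[A]).relIndex V ≤ (𝐂[V]).relIndex A := by
  have h1 := offM_le_of_abFam hA hVP hV.1 hV.2 (B := A ⊓ 𝐂[V]) inf_le_left
  rw [offM, offM, inf_eq_left.2 (cent_comm inf_le_right), ← rI_card (𝐂[V]) A,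
    ← rI_card (𝐂[A]) V] at h1
  have a : 0 < Nat.card ↥(A ⊓ 𝐂[V]) * Nat.card ↥(V ⊓ 𝐂[A]) := Nat.mul_pos Nat.card_pos Nat.card_pos
  refine Nat.le_of_mul_le_mul_left ?_ a
  nlinarith

theorem induces_of_quad {V B : Subgroup G} (hV : IsElementaryAbelian 2 V) (hB : B ≤ 𝐍[V])
    (h : ¬ B ≤ 𝐂[V]) (hq : ⁅⁅V, B⁆, B⁆ = ⊥) : InducesElemAbelianTwoGroupOn B V := by
  have hc : B ≤ 𝐂[⁅V, B⁆] := comm_eq_bot_iff'.1 hq
  refine ⟨h, fun b hb => mem_cent.2 fun v hv => ?_, fun b hb b' hb' => ?_⟩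
  · have h1 : ⁅v, b⁆ ∈ ⁅V, B⁆ := commutator_mem_commutator hv hb
    have h2 := mem_cent.1 (hc hb) _ h1
    have h3 := hV.2 _ (comm_le_left hB h1)
    calc v * b ^ 2 = ⁅v, b⁆ * (b * ⁅v, b⁆) * (b * v) := by simp only [commutatorElement_def, sq]; group
      _ = ⁅v, b⁆ ^ 2 * (b ^ 2 * v) := by rw [← h2]; simp only [sq, mul_assoc]
      _ = b ^ 2 * v := by rw [h3, one_mul]
  · have : ⁅⁅B, B⁆, V⁆ ≤ ⊥ := three_subgroups (norm_normal _ _) (norm_normal _ _) (norm_normal _ _)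
      (by rw [commutator_comm B V, hq]) hq.le
    exact comm_eq_bot_iff.1 (le_bot_iff.1 this) (commutator_mem_commutator hb hb')

theorem induces_of_ea {V B : Subgroup G} (hB : IsElementaryAbelian 2 B) (h : ¬ B ≤ 𝐂[V]) :
    InducesElemAbelianTwoGroupOn B V :=
  ⟨h, fun b hb => by rw [hB.2 b hb]; exact one_mem _, fun b hb b' hb' => by
    rw [th_comm_iff.1 hB.1 b hb b' hb']; simp⟩

end Cfsg.Agent.QT
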