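import Mathlib
import Cfsg.Agent.QT.QrcCnt
import Cfsg.Agent.Loc.BHLocal
import Cfsg.Agent.Loc.BHLift

/-! # Minimal parabolic groups have no over-offenders on sections. -/

set_option autoImplicit false
set_option linter.unusedSectionVars false

namespace Cfsg.Agent.QT

open Cfsg Cfsg.Agent.GT Cfsg.Agent.Loc Cfsg.Agent.Loc.Mss Cfsg.Agent.Loc.Blk Cfsg.Agent.Loc.BH
  Subgroup
open scoped commutatorElement

variable {G : Type*} [Group G] [Finite G] {p : ℕ} [Fact p.Prime]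

theorem le_of_le_sup_comm_pg {V Q U S : Subgroup G} (hS : IsPGroup p S) (hV : V ≤ S) (hQ : Q ≤ S)
    (hU : Q ≤ 𝐍[U]) (hVU : V ≤ 𝐍[U]) (h : V ≤ U ⊔ ⁅V, Q⁆) : V ≤ U := by
  have := hS.isNilpotent
  obtain ⟨n, hn⟩ := PG.exists_iterCommutator_eq_bot_of_isNilpotent hV hQ
  exact le_of_le_sup_comm hn hU hVU h

theorem syl_of_pm {T M : Subgroup G} (h : PM p T M) : Syl p T ⊤ := by
  obtain ⟨S, rfl⟩ := h.syl.exists_sylow_top
  exact Syl.of_sylow S

theorem le_of_not_res_le {T M C : Subgroup G} (h : PM p T M) (hT : T ≤ 𝐍[C])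
    (hC : ¬ pResidualOf p ⊤ ≤ C) (hn : pResidualOf p ⊤ ≤ 𝐍[C]) : C ≤ M := by
  have : C.Normal := normal_of_top ((syl_of_pm h).le_of_res_le hn hT)
  refine le_sup_left.trans (h.le_of_ne (K := C ⊔ T) le_sup_right fun e => hC ?_)
  exact res_le_of_le_sup hT (syl_of_pm h).pg e.ge

theorem le_pCore_of_le_normal {T M N X : Subgroup G} (h : PM p T M) [N.Normal] (hN : N ≤ M)
    (hX : IsPGroup p X) (hXN : X ≤ N) : X ≤ pCore p G := by
  have h1 : T ⊓ N ≤ pCore p G := Am.le_pCore (h.inf_normal hN) h.syl.isPGroup.to_inf_left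
  obtain ⟨g, -, hg⟩ := ((syl_of_pm h).inf le_top (norm_normal _ _)).le_conj hX hXN
  exact hg.trans (cj_le_of_norm h1 (norm_normal ⊤ _ (mem_top g)))

theorem mu_quot {V A : Subgroup G} [V.Normal] (hV : IsElementaryAbelian p V) :
    mu (quotRep hV) (A.map (QuotientGroup.mk' _)) =
      (𝐂[V]).relIndex A * Nat.card ↥(V ⊓ 𝐂[A]) := by
  rw [mu, ← img_topMk, (compat_quotRep hV).card_fx_img le_top, img_topMk]
  congr 1
  have h1 := card_map_mk_mul (𝐂[V]) A
  rw [← rI_card (𝐂[V]) A] at h1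
  exact Nat.eq_of_mul_eq_mul_right Nat.card_pos h1

/-- An offender moves the fixed points of the Sylow subgroup. -/
theorem moves_of_off {T M V A : Subgroup G} (h : PM p T M) [V.Normal]
    (hV : IsElementaryAbelian p V) (hO : pCore p G ≤ 𝐂[V]) (hC : 𝐂[V] ≤ M)
    (hA : IsElementaryAbelian p A) (hne : ¬ A ≤ 𝐂[V])
    (ho : (𝐂[A]).relIndex V ≤ (𝐂[V]).relIndex A) : ¬ V ⊓ 𝐂[T] ≤ 𝐂[(⊤ : Subgroup G)] := by
  have hk : (QuotientGroup.mk' (𝐂[V])).ker ≤ M := (QuotientGroup.ker_mk' _).trans_le hC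
  have hf := QuotientGroup.mk'_surjective (𝐂[V])
  have hσ := compat_quotRep hV
  intro l
  refine not_fx_le_of_offender _ (quotRep hV) rfl (h.map hf hk) (quotRep_injective _)
    (h.pCore_map hf hk (hO.trans_eq (QuotientGroup.ker_mk' _).symm)) (ea_map (QuotientGroup.mk' _) hA)
    (fun e => hne ?_) ?_ ?_
  · rwa [Subgroup.map_eq_bot_iff, QuotientGroup.ker_mk'] at e
  · rw [mu_quot, EAV.card_eq, ← rI_card (𝐂[A]) V]
    exact Nat.mul_le_mul_right _ ho
  · rw [← grp_le_grp_iff, ← img_topMk, ← img_top (topMk_surjective _), hσ.grp_fx_img le_top,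
      hσ.grp_fx_img le_rfl]
    exact le_inf inf_le_left l

/-- No over-offenders. -/
theorem noOver_grp {T M V A : Subgroup G} (h : PM p T M) [V.Normal]
    (hV : IsElementaryAbelian p V) (hO : pCore p G ≤ 𝐂[V]) (hC : 𝐂[V] ≤ M)
    (hA : IsElementaryAbelian p A) : (𝐂[V]).relIndex A ≤ (𝐂[A]).relIndex V := by
  by_contra hc
  have hne : ¬ A ≤ 𝐂[V] := fun l => by
    rw [relIndex_eq_one.2 l] at hc
    exact hc (rI_pos _ _)
  have hk : (QuotientGroup.mk' (𝐂[V])).ker ≤ M := (QuotientGroup.ker_mk' _).trans_le hC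
  have hf := QuotientGroup.mk'_surjective (𝐂[V])
  have hσ := compat_quotRep hV
  have hS : Setup (quotRep hV) (T.map (QuotientGroup.mk' _)) (M.map (QuotientGroup.mk' _)) :=
    { h.map hf hk with
      inj := quotRep_injective _
      op := h.pCore_map hf hk (hO.trans_eq (QuotientGroup.ker_mk' _).symm)
      nc := fun l => moves_of_off h hV hO hC hA hne (not_le.1 hc).le (by
        rw [← grp_le_grp_iff, ← img_topMk, ← img_top (topMk_surjective _), hσ.grp_fx_img le_top,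
          hσ.grp_fx_img le_rfl] at l
        exact l.trans inf_le_right) }
  have := hS.noOver.le _ (ea_map (QuotientGroup.mk' _) hA)
  rw [mu_quot, EAV.card_eq, ← rI_card (𝐂[A]) V] at this
  exact hc (Nat.le_of_mul_le_mul_right this Nat.card_pos)

/-- No over-offenders on a section with nontrivial action of `O^p(G)`. -/
theorem sec_bound {T M X Y A D : Subgroup G} (h : PM p T M) [X.Normal] [hY : Y.Normal]
    (hXY : X ≤ Y) (hV : IsElementaryAbelian p Y) (hK : ¬ ⁅Y, pResidualOf p ⊤⁆ ≤ X)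
    (hA : IsElementaryAbelian p A) (hD : ⁅D ⊓ Y, A⁆ ≤ X) :
    (pCore p G).relIndex A ≤ D.relIndex Y := by
  induction hn : Nat.card Y using Nat.strong_induction_on generalizing Y with
  | _ n ih =>
  set Q := pCore p G with hQ
  have hYQ : Y ≤ Q := Am.le_pCore hY hV.isPGroup
  have hle : X ⊔ ⁅Y, Q⁆ ≤ Y := sup_le hXY (comm_le_left (norm_normal _ _))
  have hlt : X ⊔ ⁅Y, Q⁆ < Y := lt_of_le_of_ne hle fun e => hK ((comm_le_left (norm_normal _ _)).trans
    (le_of_le_sup_comm_pg (isPGroup_pCore p) hYQ le_rfl (norm_normal _ _) (norm_normal _ _) e.ge))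
  by_cases h1 : ⁅X ⊔ ⁅Y, Q⁆, pResidualOf p ⊤⁆ ≤ X
  swap
  · exact (ih _ (hn ▸ GT.card_lt_of_lt hlt) le_sup_left (hV.mono hle) h1
      ((commutator_mono (inf_le_inf_left _ hle) le_rfl).trans hD) rfl).trans (rI_right hle)
  set N := X ⊔ ⁅Y, Q⁆ with hN
  have h2 : ¬ ⁅Y, pResidualOf p ⊤⁆ ≤ N := fun l =>
    hK (comm_res_le_of_le hV.isPGroup (norm_normal _ _) l h1)
  set f := QuotientGroup.mk' N with hf
  have hs := QuotientGroup.mk'_surjective N
  have hNp : IsPGroup p N := hV.isPGroup.to_le hle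
  have hk : f.ker ≤ M := (QuotientGroup.ker_mk' _).trans_le
    ((hle.trans hYQ).trans ((GT.pCoreOf_top.ge.trans (syl_of_pm h).core_le).trans h.le))
  have hc : ∀ B : Subgroup G, B.map f ≤ 𝐂[Y.map f] ↔ ⁅Y, B⁆ ≤ N := fun B => by
    rw [← comm_eq_bot_iff', ← Subgroup.map_commutator, Subgroup.map_eq_bot_iff, QuotientGroup.ker_mk']
  have := hY.map f hs
  have h' := h.map hs hk
  have hC : 𝐂[Y.map f] ≤ M.map f := le_of_not_res_le h' (norm_normal _ _) (fun l => h2 ((hc _).1 (by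
    rwa [map_pResidualOf, map_top_of_surjective f hs]))) (norm_normal _ _)
  have h3 := noOver_grp h' (ea_map f hV) (by
    rw [← map_pCore_quotient hNp]; exact (hc _).2 le_sup_right) hC (ea_map f hA)
  rw [← relIndex_comap, ← relIndex_comap] at h3
  refine (rI_left ?_).trans (h3.trans (rI_left ?_))
  · refine le_trans ?_ (comap_pCore_quotient hNp).le
    rw [← map_le_iff_le_comap]
    exact le_pCore_of_le_normal h' hC ((hA.isPGroup.to_le inf_le_right).map f)
      (map_le_iff_le_comap.2 inf_le_left)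
  · rw [← map_le_iff_le_comap, ← comm_eq_bot_iff, ← Subgroup.map_commutator, Subgroup.map_eq_bot_iff,
      QuotientGroup.ker_mk']
    exact hD.trans le_sup_left

/-- Two sections with nontrivial action. -/
theorem two_sec_bound {T M X Y A : Subgroup G} (h : PM p T M) [X.Normal] [Y.Normal]
    (hXY : X ≤ Y) (hV : IsElementaryAbelian p Y) (hK : ¬ ⁅Y, pResidualOf p ⊤⁆ ≤ X)
    (hK' : ¬ pResidualOf p ⊤ ≤ 𝐂[X]) (hA : IsElementaryAbelian p A) :
    (pCore p G).relIndex A ^ 2 ≤ (𝐂[A]).relIndex Y := by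
  have h1 := sec_bound (D := cmod A X) h hXY hV hK hA (by
    rw [commutator_comm]
    exact (commutator_mono le_rfl inf_le_left).trans (comm_cmod_le _ _))
  have h2 := sec_bound (X := ⊥) (D := 𝐂[A]) h bot_le (hV.mono hXY)
    (fun l => hK' (comm_eq_bot_iff'.1 (le_bot_iff.1 l))) hA (comm_eq_bot_iff.2 inf_le_left).le
  rw [rI_mul (B := cmod A X) (le_cmod.2 ⟨norm_normal _ _,
    (comm_eq_bot_iff'.2 inf_le_left).trans_le bot_le⟩), sq]
  exact Nat.mul_le_mul (h2.trans (rI_right (le_inf (le_cmod.2 ⟨norm_normal _ _,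
    comm_le_right (norm_normal _ _)⟩) hXY))) h1

end Cfsg.Agent.QT
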