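import Mathlib
import Cfsg.Agent.QT.QrcMod

/-! # The qrc-lemma, the case `V ≤ O₂(H)`. -/

set_option autoImplicit false
set_option linter.unusedSectionVars false

namespace Cfsg.Agent.QT

open Cfsg Cfsg.Agent.GT Cfsg.Agent.Loc Cfsg.Agent.Loc.Mss Cfsg.Agent.Loc.Blk Cfsg.Agent.Loc.BH
  Subgroup
open scoped commutatorElement

variable {G : Type*} [Group G] [Finite G]

theorem ea_le_cent {p : ℕ} {V : Subgroup G} (h : IsElementaryAbelian p V) : V ≤ 𝐂[V] :=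
  le_centralizer_iff_isMulCommutative.2 h.1

theorem qrc_nonab {Q V : Subgroup G} [Q.Normal] (hV : V ≤ 𝐂[V]) (hVQ : V ≤ Q) (hQ : Q ≤ 𝐍[V])
    {g₀ : G} (h0 : ¬ cj(g₀, V) ≤ 𝐂[V]) : ∃ B ≤ Q, TwoF V B ∧ ⁅⁅V, B⁆, B⁆ = ⊥ := by
  obtain ⟨g, hg⟩ := Finite.exists_max fun g : G => (𝐂[V]).relIndex cj(g, V)
  have hQ' : Q ≤ 𝐍[cj(g, V)] := by rw [← Mss.cj_norm, ← cj_normal Q g]; exact cj_mono g hQ
  refine ⟨cj(g, V), cj_le_of_norm hVQ (norm_normal ⊤ _ (mem_top g)), TwoF.of_le (fun l => ?_) ?_,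
    comm_eq_bot_iff.2 ((comm_le_right (hVQ.trans hQ')).trans ?_)⟩
  · have := (rI_two h0).trans (hg g₀)
    rw [relIndex_eq_one.2 l] at this
    omega
  · rw [relIndex_cent_cj]; exact hg _
  · rw [← Mss.cj_cent]; exact cj_mono g hV

theorem qrc_two {T M V X : Subgroup G} (h : PM 2 T M) (hVQ : V ≤ pCore 2 G)
    (hJ : thJ 2 T ≤ 𝐂[V]) (hNJ : 𝐍[thJ 2 T] ≤ M) (hU : IsElementaryAbelian 2 (ncl ⊤ V))
    [X.Normal] (hX : X ≤ ncl ⊤ V) (h1 : ¬ ⁅ncl ⊤ V, pResidualOf 2 ⊤⁆ ≤ X)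
    (h2 : ¬ pResidualOf 2 ⊤ ≤ 𝐂[X]) : ∃ B ≤ pCore 2 G, TwoF V B ∧ ⁅⁅V, B⁆, B⁆ = ⊥ := by
  set U := ncl ⊤ V with hUd
  set Q := pCore 2 G with hQ
  have : U.Normal := normal_of_top (le_norm_ncl _ _)
  have hQT : Q ≤ T := GT.pCoreOf_top.ge.trans (syl_of_pm h).core_le
  have hUQ : U ≤ Q := ncl_le hVQ (norm_normal _ _)
  obtain ⟨A₀, hA₀, a1⟩ := h.exists_abFam_not_le (C := 𝐂[U]) (le_of_not_res_le h (norm_normal _ _)
    (fun l => h2 (l.trans (cent_anti hX))) (norm_normal _ _)) hNJ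
  obtain ⟨A, hA, -, a2, a3⟩ := exists_quad hA₀ (hUQ.trans hQT) hU (norm_normal _ _) a1
  have a4 : ¬ A ≤ Q := fun l => a2 (cent_comm (ncl_le_iff.2 fun g _ => by
    have b1 : cj(g⁻¹, A) ≤ Q := cj_le_of_norm l (norm_normal ⊤ _ (mem_top _))
    have b2 : cj(g⁻¹, A) ∈ abFam 2 T := mem_abFam_of_card_le hA (b1.trans hQT)
      (th_comm_map _ (abFam_comm hA)) (ea_map _ (ea_of_abFam hA)).2 (Mss.card_cj A _).ge
    have b3 := cj_mono g ((le_thJ b2).trans hJ)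
    rw [cj_cj_inv, Mss.cj_cent] at b3
    exact cent_comm b3))
  have c1 := two_sec_bound h hX hU h1 h2 (ea_of_abFam hA)
  have c2 := rI_le_of_abFam hA (hUQ.trans hQT) hU
  have c3 := rI_le_mul (𝐂[U]) Q A
  have c4 := rI_two a4
  have c5 : Q.relIndex A ≤ (𝐂[U]).relIndex (Q ⊓ A) := by
    rw [← hQ] at c1
    nlinarith
  have c6 : TwoF U (Q ⊓ A) := ⟨fun l => by
    rw [relIndex_eq_one.2 l] at c5; omega, by
    have : (𝐂[Q ⊓ A]).relIndex U ≤ (𝐂[A]).relIndex U :=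
      rI_left (inf_le_left.trans (cent_anti inf_le_right))
    rw [← hQ] at c1
    nlinarith⟩
  obtain ⟨g, D, d1, d2⟩ := TwoF.chain (Z := fun g : (⊤ : Subgroup G) => cj((g : G), V)) c6
  have d3 := d2.map (cj_inj (g : G)⁻¹)
  rw [cj_inv_cj] at d3
  refine ⟨_, cj_le_of_norm (d1.trans inf_le_left) (norm_normal ⊤ _ (mem_top _)), d3, ?_⟩
  conv_lhs => rw [← cj_inv_cj V g]
  rw [← Mss.cj_comm, ← Mss.cj_comm, cj_eq_bot, eq_bot_iff, ← a3]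
  exact commutator_mono (commutator_mono (cj_le_ncl V (mem_top _)) (d1.trans inf_le_right))
    (d1.trans inf_le_right)

theorem qrc_caseA {T M V : Subgroup G} (h : PM 2 T M) (hV : IsElementaryAbelian 2 V)
    (hVQ : V ≤ pCore 2 G) (hTV : T ≤ 𝐍[V]) (hn : ¬ ⊤ ≤ 𝐍[V]) (hJ : thJ 2 T ≤ 𝐂[V])
    (hNJ : 𝐍[thJ 2 T] ≤ M) (hZ : pResidualOf 2 ⊤ ≤ 𝐂[ΩZ[2, pCore 2 G]]) :
    ∃ B ≤ pCore 2 G, TwoF V B ∧ ⁅⁅V, B⁆, B⁆ = ⊥ := by
  have hT := syl_of_pm h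
  have hQT : pCore 2 G ≤ T := GT.pCoreOf_top.ge.trans hT.core_le
  by_cases h0 : ∃ g, ¬ cj(g, V) ≤ 𝐂[V]
  · obtain ⟨g, hg⟩ := h0
    exact qrc_nonab (ea_le_cent hV) hVQ (hQT.trans hTV) hg
  push Not at h0
  have hU : IsElementaryAbelian 2 (ncl ⊤ V) := by
    have a1 : V ≤ 𝐂[ncl ⊤ V] := cent_comm (ncl_le_iff.2 fun g _ => h0 g)
    exact (ea_oz (ncl ⊤ V)).mono (ncl_le (le_oz hV (le_ncl _ _) a1) (norm_oz (le_norm_ncl _ _)))
  have key := fun (X : Subgroup G) [X.Normal] => qrc_two (X := X) h hVQ hJ hNJ hU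
  set U := ncl ⊤ V with hUd
  set Q := pCore 2 G with hQ
  set K := pResidualOf 2 (⊤ : Subgroup G) with hK
  have : U.Normal := normal_of_top (le_norm_ncl _ _)
  have : K.Normal := normal_of_top (le_norm_res _)
  have hUQ : U ≤ Q := ncl_le hVQ (norm_normal _ _)
  have hVU : V ≤ U := le_ncl _ _
  have hQp : IsPGroup 2 Q := isPGroup_pCore 2
  have h1 : ¬ ⁅U, K⁆ ≤ ⁅U, Q⁆ := fun l => by
    have a1 : V ⊔ ⁅U, Q⁆ ≤ U := sup_le hVU (comm_le_left (norm_normal _ _))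
    have a2 : ⊤ ≤ 𝐍[V ⊔ ⁅U, Q⁆] := hT.le_of_res_le (norm_of_comm_le a1 (l.trans le_sup_right))
      (norm_sup hTV (norm_normal _ _))
    have a3 : U ≤ V := le_of_le_sup_comm_pg hQp hUQ le_rfl (hQT.trans hTV)
      (norm_of_cent (ncl_le_iff.2 fun g _ => h0 g)) (ncl_le le_sup_left a2)
    exact hn (le_antisymm a3 hVU ▸ norm_normal _ _)
  by_cases h2 : K ≤ 𝐂[⁅U, Q⁆]
  swap
  · exact key _ (comm_le_left (norm_normal _ _)) h1 h2
  set Q₀ := ⁅Q, K⁆ with hQ₀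
  have q1 : Q₀ ≤ Q := comm_le_left (norm_normal _ _)
  have q2 : Q₀ ≤ K := comm_le_right (norm_normal _ _)
  have q3 : ⁅Q₀, K⁆ = Q₀ := comm_res_res hQp (norm_normal _ _)
  have z1 : ⁅U, Q₀⁆ ≤ ⁅U, Q⁆ := commutator_mono le_rfl q1
  have z2 : ⁅U, Q₀⁆ ≤ U := comm_le_left (norm_normal _ _)
  have z3 : K ≤ 𝐂[⁅U, Q₀⁆] := h2.trans (cent_anti z1)
  have z4 : ⁅U, Q₀⁆ ≠ ⊥ := fun e => by
    have a1 : ⁅⁅U, K⁆, Q⁆ ≤ ⊥ := three_subgroups (norm_normal _ _) (norm_normal _ _)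
      (norm_normal _ _) (by rw [commutator_comm K Q, commutator_comm, e])
      (by rw [commutator_comm Q U]; exact (comm_eq_bot_iff'.2 h2).le)
    have a2 : ⁅U, K⁆ ≤ U := comm_le_left (norm_normal _ _)
    have a3 := res_le_cent_of_two hU.isPGroup (norm_normal _ _)
      (le_oz (hU.mono a2) (a2.trans hUQ) (comm_eq_bot_iff.1 (le_bot_iff.1 a1))) hZ
    exact h1 ((comm_eq_bot_iff'.2 a3).trans_le bot_le)
  have z5 : ¬ ⁅U, Q₀⁆ ≤ ⁅⁅U, Q₀⁆, T⁆ := fun l => z4 (le_bot_iff.1 (le_of_le_sup_comm_pg hT.pg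
    ((z2.trans hUQ).trans hQT) le_rfl (norm_normal _ _) (norm_normal _ _) (l.trans le_sup_right)))
  obtain ⟨z, hz, hz'⟩ := SetLike.not_le_iff_exists.1 z5
  obtain ⟨X, x1, x2, x3, x4, -⟩ := (hU.mono z2).exists_hyperplane
    (comm_le_left (norm_normal _ _)) hz hz'
  have : X.Normal := normal_of_top (hT.le_of_res_le (norm_of_cent (z3.trans (cent_anti x2)))
    (norm_of_comm_le x2 x1))
  have : (cmod Q₀ X).Normal := normal_of_top (norm_cmod (norm_normal _ _) (norm_normal _ _))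
  have y1 : ¬ ⁅U, K⁆ ≤ U ⊓ cmod Q₀ X := fun l => x4 (by
    have a1 : ⁅⁅Q₀, K⁆, U⁆ ≤ X := three_subgroups (norm_normal _ _) (norm_normal _ _)
      (norm_normal _ _) (by
        rw [commutator_comm K U, commutator_comm]
        exact (commutator_mono le_rfl (l.trans inf_le_right)).trans (comm_cmod_le _ _))
      ((comm_eq_bot_iff'.2 z3).trans_le bot_le)
    rw [q3, commutator_comm] at a1
    exact a1 hz)
  by_cases y2 : K ≤ 𝐂[U ⊓ cmod Q₀ X]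
  swap
  · exact key _ inf_le_left y1 y2
  have y3 : Q₀ ≤ 𝐂[U ⊓ cmod Q₀ X] := comm_eq_bot_iff.1 (le_bot_iff.1 (three_subgroups
    (norm_normal _ _) (norm_normal _ _) (norm_normal _ _)
    (by rw [comm_eq_bot_iff.2 y2, commutator_bot_left])
    (comm_eq_bot_iff'.2 (y2.trans (cent_anti (comm_le_left (norm_normal _ _))))).le))
  have y4 : ⁅Q₀, V⁆ ≤ ⁅U, Q₀⁆ := by
    rw [commutator_comm]; exact commutator_mono hVU le_rfl
  refine ⟨Q₀, q1, TwoF.of_le (fun l => z4 (comm_eq_bot_iff.2 (ncl_le (cent_comm l)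
    (norm_normal _ _)))) ((rI_left ?_).trans (pairing_le x2 x3
      (z2.trans ((ea_le_cent hU).trans (cent_anti hVU))) y4 (cent_comm (q2.trans z3)))),
    comm_eq_bot_iff'.2 ((q2.trans z3).trans (cent_anti (commutator_mono hVU le_rfl)))⟩
  exact (le_inf (inf_le_right.trans hVU) inf_le_left).trans (cent_comm y3)

end Cfsg.Agent.QT
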