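import Mathlib
import Cfsg.Agent.QT.QrcA
import Cfsg.Agent.Loc.FFBasic
import Cfsg.Agent.GT.Zipper

/-! # The qrc-lemma, the case `V ≰ O₂(H)`: a cubic 2F-offender. -/

set_option autoImplicit false
set_option linter.unusedSectionVars false

namespace Cfsg.Agent.QT

open Cfsg Cfsg.Agent.GT Cfsg.Agent.Loc Cfsg.Agent.Loc.Mss Cfsg.Agent.Loc.Blk Cfsg.Agent.Loc.BH
  Subgroup
open scoped commutatorElement

variable {G : Type*} [Group G] [Finite G]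

theorem cub_core {W Y R : Subgroup G} [W.Normal] (hW : W ≤ 𝐂[W]) (hY : Y ≤ 𝐂[Y]) (hWY : W ≤ 𝐍[Y])
    (hR : R ≤ 𝐂[Y]) (hn : ¬ Y ≤ 𝐂[W]) {y g : G} (hy : y ∈ Y)
    (hF : ∀ P ≤ W, cj(g, R) ≤ 𝐍[P] → zpowers y ≤ 𝐍[P] → P = ⊥ ∨ P = W) :
    W ⊓ 𝐂[zpowers y] ≤ 𝐂[Y] ∧ W ⊓ cj(g, Y) ⊓ 𝐂[Y] = ⊥ := by
  set X := cj(g, Y) with hX
  have a1 : W ≤ 𝐍[X] := by rw [hX, ← Mss.cj_norm, ← cj_normal W g]; exact cj_mono g hWY
  have a2 : X ≤ 𝐂[X] := by rw [hX, ← Mss.cj_cent]; exact cj_mono g hY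
  have a3 : cj(g, R) ≤ 𝐂[X] := by rw [hX, ← Mss.cj_cent]; exact cj_mono g hR
  have a4 : ¬ X ≤ 𝐂[W] := fun l => hn (by
    rwa [hX, ← cj_normal W g, ← Mss.cj_cent, cj_le_cj] at l)
  have a5 : ⁅W, cj(g, R)⁆ ≤ 𝐂[X] := comm_eq_bot_iff.1 (le_bot_iff.1 (three_subgroups
    (norm_normal _ _) (norm_normal _ _) (norm_normal _ _)
    (by rw [comm_eq_bot_iff.2 a3, commutator_bot_left])
    (comm_eq_bot_iff'.2 (a3.trans (cent_anti (comm_le_left a1)))).le))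
  have a6 : ∀ B : Subgroup G, ⁅W, B⁆ ≤ W := fun B => comm_le_left (norm_normal _ _)
  have a7 : W ⊓ 𝐂[X] ⊔ ⁅W, zpowers y⁆ ≤ W := sup_le inf_le_left (a6 _)
  have a8 := (hF _ a7 (norm_of_comm_le a7 ((le_inf (a6 _) a5).trans le_sup_left))
    (norm_of_comm_le a7 le_sup_right)).resolve_left fun e => a4 (comm_eq_bot_iff'.1
      (eq_bot_iff.2 (((le_inf (a6 _) ((comm_le_right a1).trans a2)).trans le_sup_left).trans e.le)))
  have b1 := card_sup_mul_card_inf_of_le_normalizer (H := W ⊓ 𝐂[X]) (K := ⁅W, zpowers y⁆)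
    (norm_of_cent (inf_le_left.trans (hW.trans (cent_anti (a6 _)))))
  have b2 : Nat.card ↥(W ⊓ 𝐂[X]) = Nat.card ↥(W ⊓ 𝐂[Y]) := by
    rw [hX, ← Mss.cj_cent, ← Mss.card_cj (W ⊓ 𝐂[Y]) g, Mss.cj_inf, cj_normal W]
  have b3 := FF.card_commutator_zpowers_mul (le_centralizer_iff_isMulCommutative.1 hW)
    (norm_normal ⊤ W (mem_top y))
  rw [a8, b2] at b1
  have b4 : W ⊓ 𝐂[Y] = W ⊓ 𝐂[zpowers y] := Loc.eq_of_le_of_card_le
    (inf_le_inf_left _ (cent_anti (zpowers_le.2 hy))) (by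
      have c1 : 0 < Nat.card ↥(W ⊓ 𝐂[X] ⊓ ⁅W, zpowers y⁆) := Nat.card_pos
      have c2 : 0 < Nat.card ↥(⁅W, zpowers y⁆ : Subgroup G) := Nat.card_pos
      refine Nat.le_of_mul_le_mul_left ?_ c2
      nlinarith)
  refine ⟨b4.ge.trans inf_le_right, eq_bot_iff.2 ((inf_le_inf_left _
    (cent_anti (zpowers_le.2 hy))).trans (Or.resolve_right (hF _ (inf_le_left.trans inf_le_left)
      (norm_of_cent (a3.trans (cent_anti (inf_le_left.trans inf_le_right))))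
      (norm_of_cent (cent_comm inf_le_right))) fun e => hn ?_).le)⟩
  exact cent_comm ((le_inf le_rfl (e.ge.trans inf_le_right)).trans (b4.ge.trans inf_le_right))

theorem exists_chief_of_res {p : ℕ} [Fact p.Prime] {O : Subgroup G} [O.Normal] (hO : IsPGroup p O)
    (hc : ¬ pResidualOf p ⊤ ≤ 𝐂[O]) : ∃ Q₁ Q₂ : Subgroup G, Q₁.Normal ∧ Q₂.Normal ∧ Q₁ ≤ Q₂ ∧
      Q₂ ≤ O ∧ ⁅Q₂, O⁆ ≤ Q₁ ∧ ¬ ⁅Q₂, pResidualOf p ⊤⁆ ≤ Q₁ ∧
      ∀ P : Subgroup G, P.Normal → Q₁ ≤ P → P ≤ Q₂ → P = Q₁ ∨ P = Q₂ := by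
  obtain ⟨Q₂, ⟨n2, a1, a2⟩, m2⟩ := (Set.toFinite
    {X : Subgroup G | X.Normal ∧ X ≤ O ∧ ¬ pResidualOf p ⊤ ≤ 𝐂[X]}).exists_minimal
    ⟨O, inferInstance, le_rfl, hc⟩
  have a3 : ⁅Q₂, O⁆ < Q₂ := lt_of_le_of_ne (comm_le_left (norm_normal _ _)) fun e => a2 (by
    rw [le_bot_iff.1 (le_of_le_sup_comm_pg hO a1 le_rfl (norm_normal _ ⊥) (norm_normal _ _)
      (e.ge.trans le_sup_right)), cent_bot]
    exact le_top)
  obtain ⟨Q₁, ⟨n1, b1, b2⟩, m1⟩ := (Set.toFinite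
    {X : Subgroup G | X.Normal ∧ ⁅Q₂, O⁆ ≤ X ∧ X < Q₂}).exists_maximal
    ⟨_, inferInstance, le_rfl, a3⟩
  refine ⟨Q₁, Q₂, n1, n2, b2.le, a1, b1, fun l => a2 (res_le_cent_of_two (hO.to_le a1)
    (norm_normal _ _) l ?_), fun P hP c1 c2 => ?_⟩
  · by_contra hc'
    exact not_le_of_gt b2 (m2 ⟨n1, b2.le.trans a1, hc'⟩ b2.le)
  · by_cases e : P = Q₂
    · exact Or.inr e
    · exact Or.inl (le_antisymm (m1 ⟨hP, b1.trans c1, lt_of_le_of_ne c2 e⟩ c1) c1)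

theorem cub_bound {R Y : Subgroup G} (hRp : IsPGroup 2 R) (hY : IsElementaryAbelian 2 Y)
    (hR : R ≤ 𝐂[Y]) (hO : pCore 2 G ≤ 𝐍[Y]) (hn : ¬ Y ≤ pCore 2 G)
    (hc : ¬ pResidualOf 2 ⊤ ≤ 𝐂[pCore 2 G])
    (hmin : ∀ K : Subgroup G, K ≠ ⊤ → R ≤ K → pCore 2 G ≤ K → Y ≤ pCoreOf 2 K) :
    ∃ g, (pCore 2 G).relIndex Y ≤ (𝐂[Y]).relIndex (pCore 2 G ⊓ cj(g, Y)) := by
  obtain ⟨Q₁, Q₂, n1, n2, q1, q2, q3, q4, q5⟩ := exists_chief_of_res (isPGroup_pCore 2) hc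
  set O := pCore 2 G with hOd
  set f := QuotientGroup.mk' Q₁ with hf
  have hs := QuotientGroup.mk'_surjective Q₁
  have hk : f.ker = Q₁ := QuotientGroup.ker_mk' _
  set W := Q₂.map f with hW
  have : W.Normal := n2.map f hs
  have hcm : W.comap f = Q₂ := comap_map_eq_self (hk.trans_le q1)
  have hcW : ∀ B : Subgroup G, B.map f ≤ 𝐂[W] ↔ ⁅Q₂, B⁆ ≤ Q₁ := fun B => by
    rw [← comm_eq_bot_iff', ← Subgroup.map_commutator, Subgroup.map_eq_bot_iff, hk]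
  have a1 : ¬ Y.map f ≤ 𝐂[W] := fun l => by
    have : (cmod Q₂ Q₁).Normal := normal_of_top (norm_cmod (norm_normal _ _) (norm_normal _ _))
    have b1 := hmin (cmod Q₂ Q₁ ⊔ R) (fun e => q4 (le_cmod.1
      (res_le_of_le_sup (norm_normal _ _) hRp e.ge)).2) le_sup_right
      ((le_cmod.2 ⟨norm_normal _ _, q3⟩).trans le_sup_left)
    exact hn ((le_core_of_le le_sup_left b1 (le_cmod.2 ⟨norm_normal _ _, (hcW _).1 l⟩)).trans
      (Am.le_pCore (normal_of_top (norm_core (norm_normal _ _))) (pg_core _)))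
  have key : ∀ y ∈ Y, y ∉ O → ∃ g, W ⊓ 𝐂[zpowers (f y)] ≤ 𝐂[Y.map f] ∧
      W ⊓ cj(f g, Y.map f) ⊓ 𝐂[Y.map f] = ⊥ := fun y hy hyO => by
    obtain ⟨g, hg⟩ := not_forall.1 fun l => hyO (baer_suzuki_elem (p := 2) l)
    refine ⟨g, cub_core ((hcW _).2 ((commutator_mono le_rfl q2).trans q3))
      (map_cent_le f (ea_le_cent hY)) (map_norm_le f (q2.trans hO)) (map_cent_le f hR) a1
      (mem_map_of_mem f hy) fun P hP h1 h2 => ?_⟩
    have c1 : Q₁ ≤ P.comap f := hk.ge.trans (ker_le_comap _ _)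
    have c2 : P.comap f ≤ Q₂ := (comap_mono hP).trans hcm.le
    have c3 : cj(g, R) ≤ 𝐍[P.comap f] := (le_comap_map f _).trans (comap_norm_le f (by
      rwa [Mss.map_cj]))
    have c4 : zpowers y ≤ 𝐍[P.comap f] := (le_comap_map f _).trans (comap_norm_le f (by
      rwa [MonoidHom.map_zpowers]))
    have c5 : 𝐍[P.comap f] = ⊤ := by
      by_contra hc'
      have d1 := hmin cj(g⁻¹, 𝐍[P.comap f]) (fun e => hc' (by
        rw [← cj_cj_inv 𝐍[P.comap f] g, e, Mss.cj_top])) (Mss.cj_le_iff_le_inv.1 c3) (by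
          rw [← Mss.cj_le_iff_le_inv, cj_normal]
          exact norm_of_comm_le c2 (q3.trans c1))
      rw [← Mss.cj_core, ← Mss.cj_le_iff_le_inv] at d1
      refine hg ((pg_sup (hY.isPGroup.to_le (zpowers_le.2 hy)) (pg_core _)
        (c4.trans (le_norm_core _))).to_le ((closure_le _).2 ?_))
      rintro x (rfl | rfl)
      · exact mem_sup_left (mem_zpowers _)
      · exact mem_sup_right (d1 (conj_mem_cj hy))
    rw [← map_comap_eq_self_of_surjective hs P]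
    exact (q5 _ (normal_of_top c5.ge) c1 c2).imp
      (fun e => by rw [e, Subgroup.map_eq_bot_iff, QuotientGroup.ker_mk']) fun e => by rw [e]
  obtain ⟨w, hw, hw'⟩ := SetLike.not_le_iff_exists.1 fun l : W ≤ 𝐂[Y.map f] => a1 (cent_comm l)
  have a2 : O.relIndex Y ≤ Nat.card ↥(W ⊓ Y.map f) := by
    have b1 : (𝐂[zpowers w]).comap f ⊓ Y ≤ O := fun y hy => by
      by_contra hyO
      obtain ⟨g, hg, -⟩ := key y hy.2 hyO
      exact hw' (hg ⟨hw, cent_comm (zpowers_le.2 hy.1) (mem_zpowers w)⟩)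
    have b2 : w ∈ 𝐍[Y.map f] := map_norm_le f (q2.trans hO) hw
    have b3 := FF.card_commutator_zpowers_mul (ea_map f hY).1 b2
    rw [← rI_card (𝐂[zpowers w]) (Y.map f)] at b3
    refine (rI_left b1).trans ?_
    rw [relIndex_comap, ← Nat.eq_of_mul_eq_mul_right Nat.card_pos b3]
    exact card_le_of_le (le_inf ((commutator_mono le_rfl (zpowers_le.2 hw)).trans
      (comm_le_right (norm_normal _ _))) (comm_le_left (zpowers_le.2 b2)))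
  obtain ⟨y, hy, hyO⟩ := SetLike.not_le_iff_exists.1 hn
  obtain ⟨g, -, hg⟩ := key y hy hyO
  refine ⟨g, a2.trans (le_trans ?_ ((rI_left (B := (⊥ : Subgroup (G ⧸ Q₁)).comap f) ?_).trans
    (rI_right (inf_le_inf_right _ q2))))⟩
  · rw [relIndex_comap, relIndex_bot_left, ← Mss.card_cj _ (f g), Mss.cj_inf, cj_normal,
      ← Mss.map_cj]
    refine card_le_of_le ?_
    rintro _ ⟨h1, x, hx, rfl⟩
    exact mem_map_of_mem f ⟨hcm.le h1, hx⟩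
  · rw [← map_le_iff_le_comap, ← hg, ← Mss.map_cj]
    exact le_inf (le_inf (map_mono (inf_le_right.trans inf_le_left))
      (map_mono (inf_le_right.trans inf_le_right))) (map_cent_le f inf_le_left)

theorem cub_min {O Y : Subgroup G} [O.Normal] (hY : IsElementaryAbelian 2 Y) (hO : O ≤ 𝐍[Y])
    (hn : ¬ Y ≤ O) {g₀ : G} (h0 : O.relIndex Y ≤ (𝐂[Y]).relIndex (O ⊓ cj(g₀, Y))) :
    ∃ B ≤ O, IsElementaryAbelian 2 B ∧ TwoF Y B ∧ ⁅⁅⁅Y, B⁆, B⁆, B⁆ = ⊥ := by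
  obtain ⟨g, hg⟩ := Finite.exists_max fun g : G => (𝐂[Y]).relIndex (O ⊓ cj(g, Y))
  have h1 := h0.trans (hg g₀)
  have hO' : O ≤ 𝐍[cj(g, Y)] := by rw [← Mss.cj_norm, ← cj_normal O g]; exact cj_mono g hO
  have hX := ea_map (MulEquiv.toMonoidHom (MulAut.conj g)) hY
  refine ⟨O ⊓ cj(g, Y), inf_le_left, hX.mono inf_le_right, ⟨fun l => ?_, ?_⟩, ?_⟩
  · have := (rI_two hn).trans h1
    rw [relIndex_eq_one.2 l] at this
    omega
  · have h2 : (𝐂[O ⊓ cj(g, Y)]).relIndex (O ⊓ Y) ≤ (𝐂[Y]).relIndex (O ⊓ cj(g, Y)) := by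
      refine (rI_left (A := 𝐂[cj(g, Y)]) (inf_le_left.trans (cent_anti inf_le_right))).trans ?_
      rw [relIndex_cent_cj, Mss.cj_inf, cj_normal]
      exact hg _
    exact (rI_le_mul _ O Y).trans ((Nat.mul_le_mul h2 h1).trans_eq (sq _).symm)
  · have a1 : ⁅Y, O ⊓ cj(g, Y)⁆ ≤ O := (commutator_mono le_rfl inf_le_left).trans
      (comm_le_right (norm_normal _ _))
    have a2 : ⁅⁅Y, O ⊓ cj(g, Y)⁆, O ⊓ cj(g, Y)⁆ ≤ cj(g, Y) :=
      (commutator_mono a1 inf_le_right).trans (comm_le_right hO')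
    exact comm_eq_bot_iff.2 (a2.trans ((ea_le_cent hX).trans (cent_anti inf_le_right)))

/-- The cubic offender. -/
theorem qrc_cub {H R Y : Subgroup G} (hH : ChP 2 H) (hRH : R ≤ H) (hRp : IsPGroup 2 R)
    (hY : IsElementaryAbelian 2 Y) (hYR : Y ≤ R) (hR : R ≤ 𝐂[Y])
    (hw : ∀ P ≤ H, IsPGroup 2 P → R ≤ P → P ≤ 𝐍[Y]) (hn : ¬ Y ≤ pCoreOf 2 H) :
    ∃ B ≤ H, IsPGroup 2 ↥(R ⊔ B) ∧ IsElementaryAbelian 2 B ∧ TwoF Y B ∧
      ⁅⁅⁅Y, B⁆, B⁆, B⁆ = ⊥ := by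
  obtain ⟨L, ⟨l1, l2, l3, l4⟩, hL⟩ := (Set.toFinite
    {L : Subgroup G | R ≤ L ∧ pCoreOf 2 H ≤ L ∧ L ≤ H ∧ ¬ Y ≤ pCoreOf 2 L}).exists_minimal
    ⟨H, hRH, core_le H, le_rfl, hn⟩
  have hi := L.subtype_injective
  have hYL : Y ≤ L := hYR.trans l1
  have eY : (Y.subgroupOf L).map L.subtype = Y := map_subgroupOf_eq_of_le hYL
  have eR : (R.subgroupOf L).map L.subtype = R := map_subgroupOf_eq_of_le l1
  have hp : IsPGroup 2 ↥(R ⊔ pCoreOf 2 L) := pg_sup hRp (pg_core L) (l1.trans (le_norm_core L))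
  have a1 : pCore 2 L ≤ 𝐍[Y.subgroupOf L] := by
    rw [← map_le_norm_iff hi, eY]
    exact le_sup_right.trans (hw _ (sup_le hRH ((core_le L).trans l3)) hp le_sup_left)
  have a2 : ¬ Y.subgroupOf L ≤ pCore 2 L := fun l => l4 (eY ▸ map_mono l)
  have a3 : IsElementaryAbelian 2 (Y.subgroupOf L) :=
    ⟨le_centralizer_iff_isMulCommutative.1 (by
      rw [← map_le_cent_iff hi, eY]; exact ea_le_cent hY), fun a ha => Subtype.ext (hY.2 a ha)⟩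
  obtain ⟨g, hg⟩ := cub_bound (R := R.subgroupOf L) hRp.comap_subtype a3 (by
    rw [← map_le_cent_iff hi, eY, eR]; exact hR) a1 a2 (fun l => by
      have b1 := map_cent_le L.subtype l
      rw [map_pResidualOf, Mss.map_subtype_top] at b1
      exact l4 (hYL.trans (le_core_of_norm ((hH.of_core_le l3 l2).pg_of_res_le le_rfl b1) le_rfl
        le_normalizer))) fun K k1 k2 k3 => by
      by_contra k4
      refine k1 (top_le_iff.1 ((map_subtype_le_iff).1 ?_))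
      rw [Mss.map_subtype_top]
      refine hL ⟨eR.ge.trans (map_mono k2), (core_le_core_of_le l3 l2).trans (map_mono k3),
        (map_subtype_le K).trans l3, fun l => k4 ?_⟩ (map_subtype_le K)
      rwa [← map_subtype_le_iff, eY, map_pCoreOf_subtype]
  obtain ⟨B, b1, b2, b3, b4⟩ := cub_min a3 a1 a2 hg
  have b5 := b3.map hi
  rw [eY] at b5
  refine ⟨B.map L.subtype, (map_subtype_le B).trans l3, hp.to_le (sup_le_sup_left (map_mono b1) _),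
    ea_map _ b2, b5, ?_⟩
  rw [← eY, ← Subgroup.map_commutator, ← Subgroup.map_commutator, ← Subgroup.map_commutator, b4,
    Subgroup.map_bot]

end Cfsg.Agent.QT
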