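import Mathlib
import Cfsg.Prelude.Def_QuasithinSetup

/-! A computable model of `S₄ ≀ Z₂` and the finite facts about it used for S1829. -/

set_option autoImplicit false
open Subgroup

namespace Cfsg.Agent.QT.Wr

/-- `S₄` by a multiplication table: `0 = 1`, `1 = (01)(23)`, `2 = (02)(13)`, `4 = (01)`,
`8 = (012)`; the first eight elements form a dihedral group. -/
structure S where
  v : Fin 24
deriving DecidableEq

instance (p : S → Prop) [DecidablePred p] : Decidable (∀ x, p x) :=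
  decidable_of_iff (∀ i : Fin 24, p ⟨i⟩) ⟨fun h x => h x.v, fun h _ => h _⟩

instance (p : S → Prop) [DecidablePred p] : Decidable (∃ x, p x) :=
  decidable_of_iff (∃ i : Fin 24, p ⟨i⟩) ⟨fun ⟨_, h⟩ => ⟨_, h⟩, fun ⟨x, h⟩ => ⟨x.v, h⟩⟩

instance : Fintype S := Fintype.ofEquiv (Fin 24) ⟨S.mk, S.v, fun _ => rfl, fun _ => rfl⟩

def mt : ℕ := 4868317290466641234019307214289830320540928436724544274144264160706686829261127035516974252418358754487038609685448746822116897386480132897822446017823211100928215651679495606221765462226946811596076524004480765695664859660890140221229690683357473358382018938175314869671773988383169122353301078600000865918027724949139075377910062093294160117999316182593105506004934463979059188482675656231266072042026026387551586021299477643362094585427263103589596183512483933655012026999148957577557421659745998860698663923262224100182882332696405682911656871297993250919537516459239563344536472524720426972665498022966235407744088206729057077741169926820885134550114238995847111663141479959111376809133854854300299988195486915034714718887689309678311025276600543047315113474573988878815129851490355790777836101426162096777223645721489626814865098966171919758664131485490055200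
def it : ℕ := 980671878139153949473401072252979232
def pt : ℕ := 969244904077318838398533238239042660174525697747296629220
def ot : ℕ := 9859824

instance : Mul S := ⟨fun x y => ⟨Fin.ofNat 24 ((mt >>> (5 * (24 * x.v.val + y.v.val))) % 32)⟩⟩
instance : One S := ⟨⟨0⟩⟩
instance : Inv S := ⟨fun x => ⟨Fin.ofNat 24 ((it >>> (5 * x.v.val)) % 32)⟩⟩

theorem S_assoc : ∀ a b c : S, a * b * c = a * (b * c) := by decide +kernel

instance : Group S :=
  Group.ofLeftAxioms S_assoc (by decide +kernel) (by decide +kernel)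

def S.ap (x : S) (i : Fin 4) : Fin 4 := Fin.ofNat 4 ((pt >>> (2 * (4 * x.v.val + i.val))) % 4)

theorem ap_inv : ∀ (x : S) (i : Fin 4), (x⁻¹).ap (x.ap i) = i := by decide +kernel
theorem ap_inv' : ∀ (x : S) (i : Fin 4), x.ap ((x⁻¹).ap i) = i := by decide +kernel
theorem ap_mul : ∀ (x y : S) (i : Fin 4), (x * y).ap i = x.ap (y.ap i) := by decide +kernel
theorem ap_inj : ∀ x : S, (∀ i, x.ap i = i) → x = 1 := by decide +kernel

def toPerm : S →* Equiv.Perm (Fin 4) :=
  MonoidHom.mk' (fun x => ⟨x.ap, (x⁻¹).ap, ap_inv x, ap_inv' x⟩)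
    fun x y => Equiv.ext fun i => ap_mul x y i

theorem card_S : Fintype.card S = 24 := by decide +kernel

theorem toPerm_bij : Function.Bijective toPerm := by
  rw [Fintype.bijective_iff_injective_and_card]
  refine ⟨(injective_iff_map_eq_one _).2 fun x h => ap_inj x fun i => ?_, ?_⟩
  · exact congrArg (fun σ : Equiv.Perm (Fin 4) => σ i) h
  · rw [card_S, Fintype.card_perm]; rfl

def z : S := ⟨1⟩
def v : S := ⟨2⟩
def s : S := ⟨4⟩
def ρ : S := ⟨8⟩
def S.odd (x : S) : Bool := ot.testBit x.v.val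

/-- A subgroup of `S` from a decidable predicate. -/
def sub (p : S → Bool) (h1 : p 1 = true) (h2 : ∀ a b, p a = true → p b = true → p (a * b) = true)
    (h3 : ∀ a, p a = true → p a⁻¹ = true) : Subgroup S where
  carrier := {x | p x = true}
  one_mem' := h1
  mul_mem' := h2 _ _
  inv_mem' := h3 _

instance (p : S → Bool) (h1 h2 h3) (x : S) : Decidable (x ∈ sub p h1 h2 h3) :=
  inferInstanceAs (Decidable (p x = true))

def pb (n : ℕ) (x : S) : Bool := Nat.testBit n x.v.val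

/-- The subgroups `1, Z, V, U, D, S₄` as bit masks. -/
abbrev sb (n : ℕ) (h : pb n 1 = true ∧ (∀ a b, pb n a = true → pb n b = true → pb n (a * b) = true) ∧
    ∀ a, pb n a = true → pb n a⁻¹ = true) : Subgroup S := sub (pb n) h.1 h.2.1 h.2.2

abbrev O : Subgroup S := sb 1 (by decide +kernel)
abbrev Z : Subgroup S := sb 3 (by decide +kernel)
abbrev V : Subgroup S := sb 15 (by decide +kernel)
abbrev U : Subgroup S := sb 51 (by decide +kernel)
abbrev D : Subgroup S := sb 255 (by decide +kernel)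
abbrev F : Subgroup S := sb 16777215 (by decide +kernel)
abbrev H (i : Bool) : Subgroup S := sb (cond i 15 51) (by revert i; decide +kernel)

/-- The wreath product `S₄ ≀ Z₂`. -/
structure W where
  a : S
  b : S
  e : Bool
deriving DecidableEq

instance (p : W → Prop) [DecidablePred p] : Decidable (∀ x, p x) :=
  decidable_of_iff (∀ a b e, p ⟨a, b, e⟩) ⟨fun h x => h x.a x.b x.e, fun h _ _ _ => h _⟩

instance (p : W → Prop) [DecidablePred p] : Decidable (∃ x, p x) :=
  decidable_of_iff (∃ a b e, p ⟨a, b, e⟩)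
    ⟨fun ⟨_, _, _, h⟩ => ⟨_, h⟩, fun ⟨x, h⟩ => ⟨x.a, x.b, x.e, h⟩⟩

instance : Fintype W := Fintype.ofEquiv (S × S × Bool)
  ⟨fun x => ⟨x.1, x.2.1, x.2.2⟩, fun x => (x.a, x.b, x.e), fun _ => rfl, fun _ => rfl⟩

instance : Mul W := ⟨fun x y =>
  ⟨x.a * cond x.e y.b y.a, x.b * cond x.e y.a y.b, xor x.e y.e⟩⟩
instance : One W := ⟨⟨1, 1, false⟩⟩
instance : Inv W := ⟨fun x => ⟨(cond x.e x.b x.a)⁻¹, (cond x.e x.a x.b)⁻¹, x.e⟩⟩

theorem W.mul_def (x y : W) :
    x * y = ⟨x.a * cond x.e y.b y.a, x.b * cond x.e y.a y.b, xor x.e y.e⟩ := rfl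
theorem W.one_def : (1 : W) = ⟨1, 1, false⟩ := rfl
theorem W.inv_def (x : W) : x⁻¹ = ⟨(cond x.e x.b x.a)⁻¹, (cond x.e x.a x.b)⁻¹, x.e⟩ := rfl

instance : Group W :=
  Group.ofLeftAxioms
    (by rintro ⟨a, b, e⟩ ⟨c, d, f⟩ ⟨g, h, k⟩
        cases e <;> cases f <;> cases k <;> simp [W.mul_def, mul_assoc])
    (by rintro ⟨a, b, e⟩; simp [W.mul_def, W.one_def])
    (by rintro ⟨a, b, e⟩; cases e <;> simp [W.mul_def, W.one_def, W.inv_def])

theorem card_W : Nat.card W = 1152 := by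
  rw [Nat.card_eq_fintype_card, Fintype.ofEquiv_card]
  simp [card_S]

/-- `X × Y` in the base group. -/
def pr (X Y : Subgroup S) : Subgroup W where
  carrier := {x | x.e = false ∧ x.a ∈ X ∧ x.b ∈ Y}
  one_mem' := ⟨rfl, one_mem _, one_mem _⟩
  mul_mem' := by
    rintro ⟨a, b, e⟩ ⟨c, d, f⟩ ⟨rfl, h1, h2⟩ ⟨rfl, h3, h4⟩
    exact ⟨rfl, mul_mem h1 h3, mul_mem h2 h4⟩
  inv_mem' := by
    rintro ⟨a, b, e⟩ ⟨rfl, h1, h2⟩
    exact ⟨rfl, inv_mem h1, inv_mem h2⟩

instance (X Y : Subgroup S) [DecidablePred (· ∈ X)] [DecidablePred (· ∈ Y)] (x : W) :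
    Decidable (x ∈ pr X Y) := inferInstanceAs (Decidable (x.e = false ∧ x.a ∈ X ∧ x.b ∈ Y))

/-- The Sylow 2-subgroup `D₈ ≀ Z₂`. -/
def TT : Subgroup W where
  carrier := {x | x.a ∈ D ∧ x.b ∈ D}
  one_mem' := ⟨one_mem _, one_mem _⟩
  mul_mem' := by
    rintro ⟨a, b, e⟩ ⟨c, d, f⟩ ⟨h1, h2⟩ ⟨h3, h4⟩
    cases e
    · exact ⟨mul_mem h1 h3, mul_mem h2 h4⟩
    · exact ⟨mul_mem h1 h4, mul_mem h2 h3⟩
  inv_mem' := by
    rintro ⟨a, b, e⟩ ⟨h1, h2⟩
    cases e
    · exact ⟨inv_mem h1, inv_mem h2⟩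
    · exact ⟨inv_mem h2, inv_mem h1⟩

instance (x : W) : Decidable (x ∈ TT) := inferInstanceAs (Decidable (x.a ∈ D ∧ x.b ∈ D))

theorem odd_mul : ∀ a b : S, (a * b).odd = xor a.odd b.odd := by decide +kernel
theorem odd_inv : ∀ a : S, (a⁻¹).odd = a.odd := by decide +kernel

/-- The kernel of `sign · swap` in `TT`. -/
def Tm : Subgroup W where
  carrier := {x | x ∈ TT ∧ xor (xor x.a.odd x.b.odd) x.e = false}
  one_mem' := ⟨one_mem _, by decide +kernel⟩
  mul_mem' := by
    rintro ⟨a, b, e⟩ ⟨c, d, f⟩ ⟨h1, h2⟩ ⟨h3, h4⟩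
    refine ⟨mul_mem h1 h3, ?_⟩
    revert h2 h4
    cases e <;> simp only [W.mul_def, cond_true, cond_false, odd_mul] <;>
      cases a.odd <;> cases b.odd <;> cases c.odd <;> cases d.odd <;> cases f <;> simp
  inv_mem' := by
    rintro ⟨a, b, e⟩ ⟨h1, h2⟩
    refine ⟨inv_mem h1, ?_⟩
    revert h2
    cases e <;> simp only [W.inv_def, cond_true, cond_false, odd_inv] <;>
      cases a.odd <;> cases b.odd <;> simp

instance (x : W) : Decidable (x ∈ Tm) :=
  inferInstanceAs (Decidable (x ∈ TT ∧ xor (xor x.a.odd x.b.odd) x.e = false))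

abbrev T0 : Subgroup W := pr D D
abbrev E (p : Bool × Bool) : Subgroup W := pr (H p.1) (H p.2)

def z1 : W := ⟨z, 1, false⟩
def z2 : W := ⟨1, z, false⟩
def zz : W := ⟨z, z, false⟩
def v1 : W := ⟨v, 1, false⟩
def v2 : W := ⟨1, v, false⟩
def s1 : W := ⟨s, 1, false⟩
def s2 : W := ⟨1, s, false⟩
def sz : W := ⟨s, z, false⟩
def ss : W := ⟨s, s, false⟩
def vv : W := ⟨v, v, false⟩
def r1 : W := ⟨ρ, 1, false⟩
def r2 : W := ⟨1, ρ, false⟩
def t : W := ⟨1, 1, true⟩

theorem card_sub (X : Subgroup W) [DecidablePred (· ∈ X)] :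
    Nat.card X = (Finset.univ.filter (· ∈ X)).card := by
  rw [Nat.card_eq_fintype_card, Fintype.card_subtype]

theorem card_TT : Nat.card TT = 128 := by rw [card_sub]; decide +kernel
theorem card_E (p : Bool × Bool) : Nat.card (E p) = 16 := by
  rw [card_sub]; revert p; decide +kernel
theorem card_FO : Nat.card (pr F O) = 24 := by rw [card_sub]; decide +kernel
theorem card_DO : Nat.card (pr D O) = 8 := by rw [card_sub]; decide +kernel

theorem pg_TT : IsPGroup 2 TT := IsPGroup.of_card (n := 7) (by rw [card_TT]; rfl)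

theorem T0_le : T0 ≤ TT := fun _ h => h.2
theorem Tm_le : Tm ≤ TT := fun _ h => h.1
theorem E_le (p : Bool × Bool) : E p ≤ T0 := by
  have : ∀ p : Bool × Bool, ∀ x ∈ E p, x ∈ T0 := by decide +kernel
  exact this p

theorem relIndex_T0 : T0.relIndex TT = 2 := by
  rw [relIndex_eq_two_iff]
  exact ⟨t, by decide +kernel, by decide +kernel⟩

theorem relIndex_Tm : Tm.relIndex TT = 2 := by
  rw [relIndex_eq_two_iff]
  exact ⟨t, by decide +kernel, by decide +kernel⟩

theorem E_inj : Function.Injective E := by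
  have : ∀ p q : Bool × Bool, (∀ x ∈ E p, x ∈ E q) → p = q := by decide +kernel
  exact fun p q h => this p q fun x hx => h ▸ hx

theorem E_sq : ∀ p : Bool × Bool, ∀ x ∈ E p, x * x = 1 := by decide +kernel

theorem outer_card : ∀ u ∈ TT, u.e = true → u * u = 1 →
    (Finset.univ.filter fun x : W => x ∈ TT ∧ x * x = 1 ∧ x * u = u * x).card ≤ 12 := by
  decide +kernel

theorem dich : ∀ a ∈ D, ∀ b ∈ D, a * a = 1 → b * b = 1 → (a * b) * (a * b) = 1 → a ∉ H true →
    b ∈ H false := by decide +kernel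

theorem dich' (Y : Set S) (h : ∀ a ∈ Y, a ∈ D ∧ a * a = 1) (h2 : ∀ a ∈ Y, ∀ b ∈ Y, a * b ∈ Y) :
    ∃ i, ∀ a ∈ Y, a ∈ H i := by
  by_cases h1 : ∀ a ∈ Y, a ∈ H true
  · exact ⟨_, h1⟩
  · push Not at h1
    obtain ⟨a, ha, ha'⟩ := h1
    exact ⟨false, fun b hb => dich a (h a ha).1 b (h b hb).1 (h a ha).2 (h b hb).2
      (h _ (h2 a ha b hb)).2 ha'⟩

/-- The four elementary abelian subgroups of order 16 of `TT`. -/
theorem e16 {Y : Subgroup W} (hY : Y ≤ TT) (h : ∀ y ∈ Y, y * y = 1) (hc : Nat.card Y = 16) :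
    ∃ p, Y = E p := by
  classical
  by_cases he : ∀ y ∈ Y, y.e = false
  · have hm : ∀ x ∈ Y, ∀ y ∈ Y, (x * y).a = x.a * y.a ∧ (x * y).b = x.b * y.b := fun x hx y _ => by
      simp [W.mul_def, he x hx]
    obtain ⟨i, hi⟩ := dich' {a | ∃ y ∈ Y, y.a = a}
      (by rintro _ ⟨y, hy, rfl⟩; exact ⟨(hY hy).1, by rw [← (hm y hy y hy).1, h y hy]; rfl⟩)
      (by rintro _ ⟨x, hx, rfl⟩ _ ⟨y, hy, rfl⟩; exact ⟨_, mul_mem hx hy, (hm x hx y hy).1⟩)
    obtain ⟨j, hj⟩ := dich' {a | ∃ y ∈ Y, y.b = a}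
      (by rintro _ ⟨y, hy, rfl⟩; exact ⟨(hY hy).2, by rw [← (hm y hy y hy).2, h y hy]; rfl⟩)
      (by rintro _ ⟨x, hx, rfl⟩ _ ⟨y, hy, rfl⟩; exact ⟨_, mul_mem hx hy, (hm x hx y hy).2⟩)
    refine ⟨(i, j), eq_of_le_of_card_ge (fun y hy => ⟨he y hy, hi _ ⟨y, hy, rfl⟩, hj _ ⟨y, hy, rfl⟩⟩) ?_⟩
    rw [hc, card_E]
  · push Not at he
    obtain ⟨u, hu, hue⟩ := he
    have h1 := outer_card u (hY hu) (by simpa using hue) (h u hu)
    have h2 : (Finset.univ.filter (· ∈ Y)).card ≤ _ := Finset.card_le_card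
      (t := Finset.univ.filter fun x : W => x ∈ TT ∧ x * x = 1 ∧ x * u = u * x) fun x hx => by
        have hx : x ∈ Y := by simpa using hx
        simp only [Finset.mem_filter, Finset.mem_univ, true_and]
        refine ⟨hY hx, h x hx, ?_⟩
        have e1 := h _ (mul_mem hx hu)
        exact (eq_inv_of_mul_eq_one_left e1).trans (by
          rw [mul_inv_rev, inv_eq_of_mul_eq_one_left (h x hx), inv_eq_of_mul_eq_one_left (h u hu)])
    rw [← card_sub, hc] at h2
    omega

/-! ### the permutation representation -/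

def toP : W →* Equiv.Perm (Fin 4 ⊕ Fin 4) :=
  MonoidHom.mk' (fun x => Equiv.Perm.sumCongr (toPerm x.a) (toPerm x.b) *
      cond x.e (Equiv.sumComm _ _) 1) (by
    rintro ⟨a, b, e⟩ ⟨c, d, f⟩
    ext i
    cases e <;> cases f <;> cases i <;> simp [W.mul_def])

theorem toP_inj : Function.Injective toP := by
  refine (injective_iff_map_eq_one _).2 ?_
  rintro ⟨a, b, e⟩ h
  have h1 := fun i => congrArg (fun σ : Equiv.Perm (Fin 4 ⊕ Fin 4) => σ (Sum.inl i)) h
  have h2 := fun i => congrArg (fun σ : Equiv.Perm (Fin 4 ⊕ Fin 4) => σ (Sum.inr i)) h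
  cases e
  · simp [toP] at h1 h2
    have ha : a = 1 := toPerm_bij.1 (by rw [map_one]; exact Equiv.ext h1)
    have hb : b = 1 := toPerm_bij.1 (by rw [map_one]; exact Equiv.ext h2)
    rw [ha, hb]; rfl
  · simp [toP] at h1

end Cfsg.Agent.QT.Wr
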