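import Mathlib
import Cfsg.Agent.QT.WrM

/-! The model `W` is the block stabilizer; further finite facts about `W`. -/

set_option autoImplicit false
open Subgroup
open scoped Pointwise

namespace Cfsg.Agent.QT.Wr

set_option linter.unusedSimpArgs false
set_option linter.unusedVariables false
set_option synthInstance.maxSize 4000
set_option synthInstance.maxHeartbeats 400000

theorem mem_bs {σ : Equiv.Perm (Fin 4 ⊕ Fin 4)} : σ ∈ Cfsg.blockStabilizerS4wr2 ↔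
    ({σ '' Set.range Sum.inl, σ '' Set.range Sum.inr} : Set (Set (Fin 4 ⊕ Fin 4))) =
      {Set.range Sum.inl, Set.range Sum.inr} := by
  unfold Cfsg.blockStabilizerS4wr2
  rw [MulAction.mem_stabilizer_iff, Set.smul_set_insert, Set.smul_set_singleton]
  rfl

theorem toP_range : toP.range = Cfsg.blockStabilizerS4wr2 := by
  apply le_antisymm
  · rintro _ ⟨⟨a, b, e⟩, rfl⟩
    have hl : ∀ a : Equiv.Perm (Fin 4), Set.range (fun i => (Sum.inl (a i) : Fin 4 ⊕ Fin 4)) =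
        Set.range Sum.inl := fun a => a.surjective.range_comp Sum.inl
    have hr : ∀ a : Equiv.Perm (Fin 4), Set.range (fun i => (Sum.inr (a i) : Fin 4 ⊕ Fin 4)) =
        Set.range Sum.inr := fun a => a.surjective.range_comp Sum.inr
    rw [mem_bs, ← Set.range_comp, ← Set.range_comp]
    cases e
    · simp [toP, Function.comp_def, hl, hr]
    · simp [toP, Function.comp_def, hl, hr, Set.pair_comm]
  · intro σ hσ
    rw [mem_bs] at hσ
    have key : ∀ τ : Equiv.Perm (Fin 4 ⊕ Fin 4), Set.MapsTo τ (Set.range Sum.inl) (Set.range Sum.inl) →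
        ∃ a b : S, τ = Equiv.Perm.sumCongr (toPerm a) (toPerm b) := fun τ h => by
      obtain ⟨⟨a, b⟩, rfl⟩ := Equiv.Perm.mem_sumCongrHom_range_of_perm_mapsTo_inl h
      obtain ⟨a, rfl⟩ := toPerm_bij.2 a
      obtain ⟨b, rfl⟩ := toPerm_bij.2 b
      exact ⟨a, b, rfl⟩
    have h1 : σ '' Set.range Sum.inl ∈ ({Set.range Sum.inl, Set.range Sum.inr} :
      Set (Set (Fin 4 ⊕ Fin 4))) := hσ ▸ Set.mem_insert _ _
    rcases h1 with h1 | h1
    · obtain ⟨a, b, h⟩ := key σ fun x hx => h1 ▸ Set.mem_image_of_mem _ hx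
      exact ⟨⟨a, b, false⟩, by simp [toP, h]⟩
    · obtain ⟨a, b, h⟩ := key (Equiv.sumComm _ _ * σ) fun x hx => by
        obtain ⟨j, hj⟩ : σ x ∈ Set.range Sum.inr := (Set.mem_singleton_iff.1 h1) ▸ Set.mem_image_of_mem _ hx
        exact ⟨j, by simp [← hj]⟩
      refine ⟨⟨b, a, true⟩, ?_⟩
      have : σ = Equiv.sumComm _ _ * Equiv.Perm.sumCongr (toPerm a) (toPerm b) := by
        rw [← h]; ext i; simp
      rw [this]; ext i; cases i <;> simp [toP]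

theorem exists_psi {G : Type*} [Group G] {M : Subgroup G}
    (e : M ≃* Cfsg.blockStabilizerS4wr2) : ∃ ψ : W →* G, Function.Injective ψ ∧ ψ.range = M := by
  let e1 : W ≃* M := ((MonoidHom.ofInjective toP_inj).trans
    (MulEquiv.subgroupCongr toP_range)).trans e.symm
  refine ⟨M.subtype.comp e1.toMonoidHom, M.subtype_injective.comp e1.injective, ?_⟩
  rw [← MonoidHom.map_range, MonoidHom.range_eq_top.2 e1.surjective, ← MonoidHom.range_eq_map,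
    range_subtype]

/-! ### normalizers and centralizers in `W` -/

theorem fa_pr {X Y : Subgroup S} {P : W → Prop} :
    (∀ x ∈ pr X Y, P x) ↔ ∀ a ∈ X, ∀ b ∈ Y, P ⟨a, b, false⟩ :=
  ⟨fun h a ha b hb => h _ ⟨rfl, ha, hb⟩, fun h ⟨a, b, _⟩ ⟨he, ha, hb⟩ => by
    obtain rfl := he; exact h a ha b hb⟩

theorem ex_pr {X Y : Subgroup S} {P : W → Prop} :
    (∃ x ∈ pr X Y, P x) ↔ ∃ a ∈ X, ∃ b ∈ Y, P ⟨a, b, false⟩ :=
  ⟨fun ⟨⟨a, b, _⟩, ⟨he, ha, hb⟩, h⟩ => by obtain rfl := he; exact ⟨a, ha, b, hb, h⟩,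
    fun ⟨a, ha, b, hb, h⟩ => ⟨_, ⟨rfl, ha, hb⟩, h⟩⟩

theorem fa_TT {P : W → Prop} : (∀ x ∈ TT, P x) ↔ ∀ a ∈ D, ∀ b ∈ D, ∀ e, P ⟨a, b, e⟩ :=
  ⟨fun h a ha b hb e => h _ ⟨ha, hb⟩, fun h ⟨a, b, e⟩ ⟨ha, hb⟩ => h a ha b hb e⟩

abbrev A : Subgroup W := E (true, true)
abbrev B : Subgroup W := E (false, false)
abbrev C : Subgroup W := E (false, true)

theorem norm_V : ∀ c : S, ∀ a ∈ H true, c * a * c⁻¹ ∈ H true := by decide +kernel
theorem norm_A (w : W) : ∀ x ∈ A, w * x * w⁻¹ ∈ A := by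
  rw [fa_pr]
  intro a ha b hb
  obtain ⟨c, d, e⟩ := w
  cases e
  · exact ⟨rfl, norm_V c a ha, norm_V d b hb⟩
  · exact ⟨rfl, norm_V c b hb, norm_V d a ha⟩
theorem norm_E : ∀ i : Bool, ∀ w ∈ TT, ∀ x ∈ E (i, i), w * x * w⁻¹ ∈ E (i, i) := by (simp only [fa_pr, ex_pr, fa_TT]; decide +kernel)
theorem norm_E0 : ∀ p : Bool × Bool, ∀ w ∈ T0, ∀ x ∈ E p, w * x * w⁻¹ ∈ E p := by (simp only [fa_pr, ex_pr, fa_TT]; decide +kernel)
theorem norm_C : ∀ w ∈ pr D F, ∀ x ∈ C, w * x * w⁻¹ ∈ C := by (simp only [fa_pr, ex_pr, fa_TT]; decide +kernel)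
theorem t_C : ∀ x ∈ E (true, false), t * x * t⁻¹ ∈ C := by (simp only [fa_pr, ex_pr, fa_TT]; decide +kernel)
theorem t_Tm : ∀ x ∈ Tm, t * x * t⁻¹ ∈ Tm := by decide +kernel
theorem of_norm_T0 : ∀ w : W, w * s1 * w⁻¹ ∈ T0 → w * s2 * w⁻¹ ∈ T0 → w ∈ TT := by decide +kernel
theorem D_gen : ∀ i : Bool, ∀ a ∈ D, ∃ c ∈ H i, ∃ d ∈ H (!i), a = c * d := by decide +kernel
theorem T0_gen (p : Bool × Bool) : ∀ x ∈ T0, ∃ a ∈ E p, ∃ b ∈ E (!p.1, !p.2), x = a * b := by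
  rw [fa_pr]
  intro a ha b hb
  obtain ⟨c, hc, d, hd, rfl⟩ := D_gen p.1 a ha
  obtain ⟨c', hc', d', hd', rfl⟩ := D_gen p.2 b hb
  exact ⟨⟨c, c', false⟩, ⟨rfl, hc, hc'⟩, ⟨d, d', false⟩, ⟨rfl, hd, hd'⟩, rfl⟩
theorem T0_not_gen : ∀ p q : Bool × Bool, q ≠ (!p.1, !p.2) →
    E p ⊔ E q ≠ T0 := by
  have h1 : ∀ i, ¬ (∀ a ∈ D, a ∈ H i) := by decide +kernel
  have h2 : ∀ i, ∀ a ∈ H i, a ∈ D := by decide +kernel
  rintro ⟨i, j⟩ ⟨k, l⟩ hq h
  have : k = i ∨ l = j := by revert hq; cases i <;> cases j <;> cases k <;> cases l <;> simp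
  rcases this with rfl | rfl
  · have : E (k, j) ⊔ E (k, l) ≤ pr (H k) D :=
      sup_le (fun x hx => ⟨hx.1, hx.2.1, h2 _ _ hx.2.2⟩) fun x hx => ⟨hx.1, hx.2.1, h2 _ _ hx.2.2⟩
    rw [h] at this
    exact h1 k fun a ha => (this (x := ⟨a, 1, false⟩) ⟨rfl, ha, one_mem _⟩).2.1
  · have : E (i, l) ⊔ E (k, l) ≤ pr D (H l) :=
      sup_le (fun x hx => ⟨hx.1, h2 _ _ hx.2.1, hx.2.2⟩) fun x hx => ⟨hx.1, h2 _ _ hx.2.1, hx.2.2⟩
    rw [h] at this
    exact h1 l fun a ha => (this (x := ⟨1, a, false⟩) ⟨rfl, one_mem _, ha⟩).2.2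
theorem T0_eq (p : Bool × Bool) : E p ⊔ E (!p.1, !p.2) = T0 :=
  le_antisymm (sup_le (E_le _) (E_le _)) fun x hx => by
    obtain ⟨a, ha, b, hb, rfl⟩ := T0_gen p x hx
    exact mul_mem_sup ha hb
theorem pi4 : ∀ π : Bool × Bool → Bool × Bool, Function.Injective π →
    (∀ p, π (!p.1, !p.2) = (!(π p).1, !(π p).2)) → π (π (π (π (true, true)))) = (true, true) := by
  decide +kernel
theorem not_conj : ∀ w : W, w * z1 * w⁻¹ ≠ zz := by decide +kernel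
theorem cent_zz : ∀ w ∈ TT, w * zz = zz * w := by (simp only [fa_pr, ex_pr, fa_TT]; decide +kernel)
theorem cent_z1 : ∀ w ∈ T0, w * z1 = z1 * w := by (simp only [fa_pr, ex_pr, fa_TT]; decide +kernel)
theorem cent_z2 : ∀ w ∈ T0, w * z2 = z2 * w := by (simp only [fa_pr, ex_pr, fa_TT]; decide +kernel)
theorem of_cent_z1 : ∀ w ∈ TT, w * z1 = z1 * w → w ∈ T0 := by (simp only [fa_pr, ex_pr, fa_TT]; decide +kernel)
theorem of_cent_z2 : ∀ w ∈ TT, w * z2 = z2 * w → w ∈ T0 := by (simp only [fa_pr, ex_pr, fa_TT]; decide +kernel)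
theorem swap_C : ∀ w ∈ TT, w * z1 * w⁻¹ = z2 → w * v2 * w⁻¹ ∉ C := by (simp only [fa_pr, ex_pr, fa_TT]; decide +kernel)
theorem of_cent_EE : ∀ w : W, w * z1 = z1 * w → w * z2 = z2 * w → w * v2 = v2 * w → w ∈ pr D V := by
  decide +kernel
theorem EE_comm : ∀ w ∈ pr D V, ∀ x ∈ pr Z V, x * w = w * x := by (simp only [fa_pr, ex_pr, fa_TT]; decide +kernel)
theorem EE_sq : ∀ x ∈ pr Z V, x * x = 1 := by (simp only [fa_pr, ex_pr, fa_TT]; decide +kernel)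
theorem EE_le : ∀ x ∈ pr Z V, x ∈ TT := by (simp only [fa_pr, ex_pr, fa_TT]; decide +kernel)
theorem DV_le : ∀ x ∈ pr D V, x ∈ TT := by (simp only [fa_pr, ex_pr, fa_TT]; decide +kernel)
theorem A_le_DV : ∀ x ∈ A, x ∈ pr D V := by (simp only [fa_pr, ex_pr, fa_TT]; decide +kernel)
theorem A_gen : ∀ x ∈ A, x ∈ pr Z V ∨ v1 * x ∈ pr Z V := by (simp only [fa_pr, ex_pr, fa_TT]; decide +kernel)
theorem quad : ∀ a ∈ pr D V, ∀ b ∈ pr D V, a ∈ pr Z V ∨ b ∈ pr Z V ∨ b * a⁻¹ ∈ pr Z V ∨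
    a⁻¹ * v1 ∈ pr Z V ∨ b⁻¹ * v1 ∈ pr Z V ∨ (a * b)⁻¹ * v1 ∈ pr Z V := by (simp only [fa_pr, ex_pr, fa_TT]; decide +kernel)

/-! ### classes of involutions -/

def rep (a : S) : S := if a = 1 then 1 else if a ∈ V then z else s

theorem conj_rep : ∀ a ∈ D, a * a = 1 → ∃ c : S, c * a * c⁻¹ = rep a := by decide +kernel

/-- The standard representative of the class of an involution of `T0`. -/
def tp (x : W) : W :=
  if (rep x.a).v < (rep x.b).v then ⟨rep x.b, rep x.a, false⟩ else ⟨rep x.a, rep x.b, false⟩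

theorem conj_tp {x : W} (hx : x ∈ T0) (h : x * x = 1) : IsConj x (tp x) := by
  obtain ⟨a, b, e⟩ := x
  obtain ⟨rfl, h1, h2⟩ := hx
  have ha : a * a = 1 := congrArg W.a h
  have hb : b * b = 1 := congrArg W.b h
  obtain ⟨c, hc⟩ := conj_rep a h1 ha
  obtain ⟨d, hd⟩ := conj_rep b h2 hb
  unfold tp
  split_ifs
  · exact isConj_iff.2 ⟨⟨d, c, true⟩, by simp [W.mul_def, W.inv_def, hc, hd]⟩
  · exact isConj_iff.2 ⟨⟨c, d, false⟩, by simp [W.mul_def, W.inv_def, hc, hd]⟩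

def single (x : W) : Prop := x ∈ T0 ∧ x * x = 1 ∧ (tp x = z1 ∨ tp x = s1)
def double (x : W) : Prop := x ∈ T0 ∧ x * x = 1 ∧ (tp x = zz ∨ tp x = sz ∨ tp x = ss)

instance (x : W) : Decidable (single x) := by unfold single; infer_instance
instance (x : W) : Decidable (double x) := by unfold double; infer_instance

theorem single_or : ∀ x ∈ T0, x * x = 1 → x = 1 ∨ single x ∨ double x := by (simp only [fa_pr, ex_pr, fa_TT]; decide +kernel)

theorem F1 : ∀ a ∈ TT, a * a = 1 → ∀ b ∈ TT, b * b = 1 → ∀ w, w = (a * b) * (a * b) → w * w = 1 →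
    w = 1 ∨ w = zz ∨ single a ∨ single (a * zz) ∨ single (a * w) ∨ single (a * w * zz) ∨
      single b ∨ single (b * zz) ∨ single (b * w) ∨ single (b * w * zz) ∨ single w ∨
      single (w * zz) := by
  simp only [forall_eq, fa_pr, fa_TT]
  decide +kernel

theorem F2 : ∀ a ∈ T0, a * a = 1 → ∀ b ∈ T0, b * b = 1 → ∀ w, w = (a * b) * (a * b) →
    w = 1 ∨ single a ∨ single b ∨ single w ∨ double (a * z1) ∨ double (b * z1) := by
  simp only [forall_eq, fa_pr, fa_TT]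
  decide +kernel

theorem outer_conj : ∀ x ∈ TT, x.e = true → x * x = 1 → ∃ c : S, (⟨c, 1, false⟩ : W) * x *
    (⟨c, 1, false⟩ : W)⁻¹ = t := by (simp only [fa_pr, ex_pr, fa_TT]; decide +kernel)

/-! ### the fusion of `s1` -/

theorem R_comm : ∀ x ∈ pr U D, x * s1 = s1 * x := by
  (simp only [fa_pr]; decide +kernel)
theorem R_le : ∀ x ∈ pr U D, x ∈ TT := by (simp only [fa_pr]; decide +kernel)
theorem B_le_R : ∀ x ∈ B, x ∈ pr U D := by (simp only [fa_pr]; decide +kernel)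
theorem C_le_R : ∀ x ∈ C, x ∈ pr U D := by (simp only [fa_pr]; decide +kernel)
theorem G1 : ∀ b ∈ B, ∀ c ∈ C, (b * c) * (b * c) = 1 ∨ (b * c) * (b * c) = z2 := by
  (simp only [fa_pr]; decide +kernel)
theorem G2 : ∀ x ∈ B, x ∈ C → x ∈ Tm → x = 1 ∨ x = z2 ∨ x = z1 ∨ x = zz := by
  (simp only [fa_pr]; decide +kernel)
theorem G3 : ∀ x ∈ B, x ∈ C → x = 1 ∨ x = z2 ∨ x = z1 ∨ x = zz ∨
    (tp x = s1 ∧ (x = s1 ∨ x = s1 * z1)) ∨ tp x = sz := by
  (simp only [fa_pr]; decide +kernel)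
theorem G4 : ∀ b ∈ B, ∀ c ∈ C, (b * c) * (b * c) = z2 →
    (c = v2 ∨ c = v2 * z2 ∨ tp c = zz ∨ (tp c = sz ∧ c ∉ B)) ∧
    ((tp b = s1 ∧ tp (z1 * b) = sz) ∨ tp b = sz ∨ tp b = ss) := by
  (simp only [fa_pr]; decide +kernel)
theorem G5 : ∀ x ∈ B, x ∈ C → tp x = sz → tp (x * v2) = sz ∧ tp (x * (v2 * z2)) = sz ∧
    ∀ c ∈ C, tp c = sz → ∃ w ∈ pr D F, w * x * w⁻¹ = c := by
  (simp only [fa_pr, ex_pr]; decide +kernel)
theorem G6 : ∀ k ∈ pr D V, (k * s1 = s1 * k ∨ k * (s1 * z1) = (s1 * z1) * k) →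
    (r2 * k) * (r2 * k) * (r2 * k) = 1 → ∃ w ∈ pr O V, r2 * k = w * r2 * w⁻¹ := by
  (simp only [fa_pr, ex_pr]; decide +kernel)
theorem G7 : ∀ w ∈ pr O V, w * z1 = z1 * w ∧ w * z2 = z2 * w ∧ w * v2 = v2 * w := by
  (simp only [fa_pr]; decide +kernel)
theorem G8 : ∀ w ∈ pr D V, w * r2 = r2 * w → w ∈ pr D O := by
  (simp only [fa_pr]; decide +kernel)
theorem G9 : ∀ w ∈ pr F O, w * r2 = r2 * w ∧ w * z2 = z2 * w ∧ w * v2 = v2 * w ∧
    w * s2 = s2 * w := by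
  (simp only [fa_pr]; decide +kernel)
theorem G10 : ∀ w ∈ pr D O, w * z1 = z1 * w ∧ w ∈ pr F O := by
  (simp only [fa_pr]; decide +kernel)
theorem G11 : ∀ w ∈ pr D O, ∃ i : Fin 2, ∃ j : Fin 4, w = s1 ^ i.val * (s1 * v1) ^ j.val := by
  (simp only [fa_pr]; decide +kernel)
theorem G12 : ∀ w ∈ pr O V, r2 * w * r2⁻¹ ∈ pr O V := by
  (simp only [fa_pr]; decide +kernel)

/-- The dihedral group `pr D O`. -/
def dih : DihedralGroup 4 →* W :=
  MonoidHom.mk' (fun x => match x with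
    | .r i => (s1 * v1) ^ i.val
    | .sr i => s1 * (s1 * v1) ^ i.val) (by
      have h : ∀ i j : Fin 4,
          ((s1 * v1) ^ (i + j).val = (s1 * v1) ^ i.val * (s1 * v1) ^ j.val) ∧
          (s1 * (s1 * v1) ^ (j - i).val = (s1 * v1) ^ i.val * (s1 * (s1 * v1) ^ j.val)) ∧
          (s1 * (s1 * v1) ^ (i + j).val = (s1 * (s1 * v1) ^ i.val) * (s1 * v1) ^ j.val) ∧
          ((s1 * v1) ^ (j - i).val = (s1 * (s1 * v1) ^ i.val) * (s1 * (s1 * v1) ^ j.val)) := by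
        decide +kernel
      rintro (i | i) (j | j)
      · exact (h i j).1
      · exact (h i j).2.1
      · exact (h i j).2.2.1
      · exact (h i j).2.2.2)

theorem dih_inj : Function.Injective dih := by
  have h : ∀ i : Fin 4, ((s1 * v1) ^ i.val = 1 → i = 0) ∧ s1 * (s1 * v1) ^ i.val ≠ 1 := by
    decide +kernel
  refine (injective_iff_map_eq_one _).2 ?_
  rintro (i | i) hi
  · rw [(h i).1 hi]; rfl
  · exact absurd hi (h i).2

theorem dih_range : dih.range = pr D O := by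
  have h : ∀ i : Fin 4, (s1 * v1) ^ i.val ∈ pr D O ∧ s1 * (s1 * v1) ^ i.val ∈ pr D O := by
    decide +kernel
  apply le_antisymm
  · rintro _ ⟨i | i, rfl⟩
    · exact (h i).1
    · exact (h i).2
  · intro w hw
    obtain ⟨i, j, rfl⟩ := G11 w hw
    fin_cases i
    · exact ⟨.r j, by simp [dih]; rfl⟩
    · exact ⟨.sr j, by simp [dih]; rfl⟩

end Cfsg.Agent.QT.Wr
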