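import Mathlib
import Cfsg.Agent.QT.WrP
import Cfsg.Agent.Loc.MssSyl
import Cfsg.Agent.GT.TransferCocycle
import Cfsg.Agent.S0028

/-! Fusion in a group with a 2-local subgroup `S₄ ≀ Z₂` of odd index. -/

set_option autoImplicit false
open Cfsg Subgroup

namespace Cfsg.Agent.QT.Wr

open Cfsg.Agent.GT Cfsg.Agent.Loc Cfsg.Agent.Loc.Mss

variable {G : Type*} [Group G] [Finite G]

structure Ctx (ψ : W →* G) : Prop where
  inj : Function.Injective ψ
  syl : Syl 2 (TT.map ψ) ⊤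
  nA : 𝐍[A.map ψ] ≤ ψ.range
  perf : commutator G = ⊤

omit [Finite G] in
theorem norm_map {ψ : W →* G} {X Y : Subgroup W} (h : ∀ w ∈ X, ∀ y ∈ Y, w * y * w⁻¹ ∈ Y)
    [Finite G] : X.map ψ ≤ 𝐍[Y.map ψ] := by
  rintro _ ⟨w, hw, rfl⟩
  refine mem_norm_of_cj_le (cj_le_iff.2 ?_)
  rintro _ ⟨y, hy, rfl⟩
  exact ⟨_, h w hw y hy, by simp⟩

namespace Ctx

variable {ψ : W →* G} (c : Ctx ψ)
include c

omit [Finite G] in
theorem mem {X : Subgroup W} {x : W} : ψ x ∈ X.map ψ ↔ x ∈ X := mem_map_iff_mem c.inj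

omit [Finite G] in
theorem card (X : Subgroup W) : Nat.card (X.map ψ) = Nat.card X := card_map_of_injective c.inj

omit [Finite G] c in
theorem pg {X : Subgroup W} (h : X ≤ TT) : IsPGroup 2 (X.map ψ) := (pg_TT.to_le h).map ψ

omit [Finite G] in
theorem cm {x y : W} : ψ x * ψ y = ψ y * ψ x ↔ x * y = y * x := by
  rw [← map_mul, ← map_mul, c.inj.eq_iff]

omit [Finite G] in
theorem e16G {g : G} {p : Bool × Bool} (h : cj(g, (E p).map ψ) ≤ TT.map ψ) :
    ∃ q, cj(g, (E p).map ψ) = (E q).map ψ := by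
  have hr : cj(g, (E p).map ψ) ≤ ψ.range := h.trans (map_le_range _ _)
  obtain ⟨q, hq⟩ := e16 (Y := (cj(g, (E p).map ψ)).comap ψ) (fun y hy => c.mem.1 (h hy))
    (fun y hy => by
      obtain ⟨x, hx, e⟩ := mem_cj.1 hy
      apply c.inj
      have : ψ y = g * ψ x * g⁻¹ := by rw [e]; group
      rw [map_mul, this, map_one]
      calc g * ψ x * g⁻¹ * (g * ψ x * g⁻¹) = g * ψ (x * x) * g⁻¹ := by rw [map_mul]; group
        _ = 1 := by rw [E_sq p x hx]; simp)
    (by rw [← c.card, map_comap_eq_self hr, card_cj, c.card, card_E])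
  exact ⟨q, by rw [← hq, map_comap_eq_self hr]⟩

theorem t0_of {g : G} (h : cj(g, T0.map ψ) ≤ TT.map ψ) : g ∈ 𝐍[T0.map ψ] := by
  apply mem_norm_of_cj_le
  have : ∀ p, cj(g, (E p).map ψ) ≤ T0.map ψ := fun p => by
    obtain ⟨q, hq⟩ := c.e16G ((cj_mono g (map_mono (E_le p))).trans h)
    rw [hq]; exact map_mono (E_le q)
  conv_lhs => rw [← T0_eq (true, true), Subgroup.map_sup, cj_sup]
  exact sup_le (this _) (this _)

theorem normT0 : 𝐍[T0.map ψ] ≤ TT.map ψ := by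
  have hT : TT.map ψ ≤ 𝐍[T0.map ψ] :=
    norm_map fun w hw y hy => by
      have := normal_of_index_eq_two relIndex_T0
      exact (this.conj_mem ⟨y, T0_le hy⟩ hy ⟨w, hw⟩ :)
  refine c.syl.ge_of_le (pg_iff.2 fun n hn => ?_) hT le_top
  have h1 : ∀ p, ∃ q, cj(n, (E p).map ψ) = (E q).map ψ := fun p =>
    c.e16G ((cj_le_of_norm (map_mono (E_le p)) hn).trans (map_mono T0_le))
  choose π hπ using h1
  have mi := map_injective c.inj
  have hi : Function.Injective π := fun p q h =>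
    E_inj (mi (cj_eq_cj.1 ((hπ p).trans (h ▸ (hπ q).symm))))
  have ho : ∀ p, π (!p.1, !p.2) = (!(π p).1, !(π p).2) := fun p => by
    by_contra hne
    refine T0_not_gen _ _ hne (mi ?_)
    rw [Subgroup.map_sup, ← hπ, ← hπ, ← cj_sup, ← Subgroup.map_sup, T0_eq, cj_of_norm hn]
  have h4 : cj(n ^ 4, A.map ψ) = A.map ψ := by
    rw [show n ^ 4 = n * (n * (n * n)) by simp [pow_succ, mul_assoc], ← cj_cj, ← cj_cj, ← cj_cj,
      hπ, hπ, hπ, hπ, pi4 π hi ho]
  obtain ⟨w, hw⟩ := c.nA (cj_eq_iff.1 h4)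
  have hw' : ∀ x ∈ T0, w * x * w⁻¹ ∈ T0 := fun x hx => c.mem.1 (by
    rw [map_mul, map_mul, map_inv, hw]
    exact conj_mem_of_norm (pow_mem hn 4) (mem_map_of_mem _ hx))
  have hT : w ∈ TT := of_norm_T0 w (hw' _ (by decide +kernel)) (hw' _ (by decide +kernel))
  obtain ⟨k, hk⟩ := pg_iff.1 pg_TT w hT
  exact ⟨k + 2, by rw [pow_add, mul_comm, pow_mul, show 2 ^ 2 = 4 from rfl, ← hw, ← map_pow, hk, map_one]⟩

theorem wc {g : G} {i : Bool} {p : Bool × Bool} (h : cj(g, (E (i, i)).map ψ) = (E p).map ψ) :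
    p = (i, i) := by
  have hN : TT.map ψ ≤ 𝐍[(E (i, i)).map ψ] := norm_map (norm_E i)
  have h1 : Syl 2 cj(g, TT.map ψ) 𝐍[(E p).map ψ] :=
    (c.syl.cj_mem (mem_top g)).mono (by rw [← h, ← cj_norm]; exact cj_mono g hN) le_top
  obtain ⟨n, hn, hle⟩ := h1.conj_le (pg T0_le) (norm_map (norm_E0 p))
  have h2 : g⁻¹ * n ∈ TT.map ψ := c.normT0 (c.t0_of (by rw [← cj_cj]; exact le_cj_iff_inv_le.1 hle))
  have h3 := cj_of_norm (inv_mem (hN h2))
  rw [mul_inv_rev, inv_inv, ← cj_cj, h, cj_of_norm (inv_mem hn)] at h3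
  exact E_inj (map_injective c.inj h3)

theorem wcA {g : G} (h : cj(g, A.map ψ) ≤ TT.map ψ) : g ∈ ψ.range := by
  obtain ⟨q, hq⟩ := c.e16G h
  obtain rfl := c.wc hq
  exact c.nA (cj_eq_iff.1 hq)

theorem two_le {P : Subgroup G} (hP : IsPGroup 2 P) (h : A.map ψ ≤ P) : P ≤ ψ.range := by
  obtain ⟨g, -, hg⟩ := c.syl.conj_le hP le_top
  have := c.wcA ((cj_mono g h).trans hg)
  intro x hx
  have h1 : g * x * g⁻¹ ∈ ψ.range := map_le_range _ _ (cj_le_iff.1 hg x hx)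
  simpa [mul_assoc] using mul_mem (mul_mem (inv_mem this) h1) this

omit [Finite G] c in
theorem cent_map {X : Subgroup W} {y : W} (h : ∀ w ∈ X, w * y = y * w) :
    X.map ψ ≤ centralizer {ψ y} := by
  rintro _ ⟨w, hw, rfl⟩
  rw [mem_centralizer_singleton_iff, ← map_mul, h w hw, map_mul]

omit [Finite G] c in
theorem cj_cent1 {X : Subgroup G} {g x : G} (h : X ≤ centralizer {x}) :
    cj(g, X) ≤ centralizer {g * x * g⁻¹} := cj_le_iff.2 fun a ha => by
  have := mem_centralizer_singleton_iff.1 (h ha)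
  rw [mem_centralizer_singleton_iff]
  calc g * a * g⁻¹ * (g * x * g⁻¹) = g * (a * x) * g⁻¹ := by group
    _ = _ := by rw [this]; group

omit c in
/-- Extremal conjugation. -/
theorem extr {S X : Subgroup G} {x y : G} (hS : Syl 2 S (centralizer {y})) (hX : IsPGroup 2 X)
    (hx : X ≤ centralizer {x}) (h : IsConj x y) : ∃ g, g * x * g⁻¹ = y ∧ cj(g, X) ≤ S := by
  obtain ⟨g, rfl⟩ := isConj_iff.1 h
  obtain ⟨k, hk, hle⟩ := hS.conj_le (pg_cj hX g) (cj_cent1 hx)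
  refine ⟨k * g, ?_, by rwa [← cj_cj]⟩
  have := mem_centralizer_singleton_iff.1 hk
  calc k * g * x * (k * g)⁻¹ = k * (g * x * g⁻¹) * k⁻¹ := by group
    _ = _ := by rw [this]; group

omit [Finite G] in
theorem syl_zz : Syl 2 (TT.map ψ) (centralizer {ψ zz}) := c.syl.mono (cent_map cent_zz) le_top

theorem nconj : ¬ IsConj (ψ z1) (ψ zz) := fun h => by
  obtain ⟨g, hg, hle⟩ := extr c.syl_zz (pg ((E_le (true, true)).trans T0_le))
    (cent_map fun w hw => cent_z1 w (E_le _ hw)) h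
  obtain ⟨w, rfl⟩ := c.wcA hle
  exact not_conj w (c.inj (by simpa using hg))

theorem sylT0 {L : Subgroup G} (h1 : T0.map ψ ≤ L) (h2 : ∀ w ∈ TT, ψ w ∈ L → w ∈ T0) :
    Syl 2 (T0.map ψ) L :=
  Syl.of_norm (pg T0_le) h1 fun P _ _ hL hN x hx => by
    obtain ⟨w, hw, rfl⟩ := c.normT0 (hN hx)
    exact mem_map_of_mem _ (h2 w hw (hL hx))

theorem syl_z1 : Syl 2 (T0.map ψ) (centralizer {ψ z1}) :=
  c.sylT0 (cent_map cent_z1) fun w hw h =>
    of_cent_z1 w hw (c.cm.1 (mem_centralizer_singleton_iff.1 h))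

theorem burnC {n : G} (hn : n ∈ 𝐍[C.map ψ]) (h : n * ψ z1 * n⁻¹ = ψ z2) : False := by
  have hN : T0.map ψ ≤ 𝐍[C.map ψ] := norm_map (norm_E0 _)
  have hS : Syl 2 (T0.map ψ) (𝐍[C.map ψ] ⊓ centralizer {ψ z2}) :=
    c.sylT0 (le_inf hN (cent_map cent_z2)) fun w hw h =>
      of_cent_z2 w hw (c.cm.1 (mem_centralizer_singleton_iff.1 h.2))
  obtain ⟨y, hy, hle⟩ := hS.conj_le (pg_cj (pg T0_le) n)
    (le_inf (cj_le_of_mem hN hn) (h ▸ cj_cent1 (cent_map cent_z1)))
  rw [cj_cj] at hle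
  obtain ⟨w, hw, e⟩ := c.normT0 (mem_norm_of_cj_le hle)
  refine swap_C w hw (c.inj ?_) (c.mem.1 ?_)
  · have := mem_centralizer_singleton_iff.1 hy.2
    simp only [map_mul, map_inv, e]
    calc y * n * ψ z1 * (y * n)⁻¹ = y * (n * ψ z1 * n⁻¹) * y⁻¹ := by group
      _ = _ := by rw [h, this]; group
  · simp only [map_mul, map_inv, e]
    exact conj_mem_of_norm (mul_mem hy.1 hn) (mem_map_of_mem _ (by decide +kernel))

theorem thompson {Q : Subgroup W} (hQ : Q.relIndex TT = 2) {y : G} (hy : y * y = 1)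
    {X : Subgroup G} (hX : IsPGroup 2 X) (hx : X ≤ centralizer {y}) :
    ∃ g, g * y * g⁻¹ ∈ Q.map ψ ∧ cj(g, X) ≤ TT.map ψ := by
  have h1 : (Q.map ψ).relIndex (TT.map ψ) = 2 := by rw [relIndex_map_map_of_injective _ _ c.inj, hQ]
  have : ((Q.map ψ).subgroupOf (TT.map ψ)).Normal := normal_of_index_eq_two h1
  obtain ⟨g, h2, -, h3⟩ := Tr.thompson_transfer_of_isCyclic (H := TT.map ψ) (T := Q.map ψ)
    (by simpa using c.syl.nd) (isCyclic_of_prime_card (p := 2) h1) (y := y) (by rw [sq, hy])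
    (c.perf ▸ mem_top _) hX fun x h => mem_centralizer_singleton_iff.1 (hx h)
  exact ⟨g, h2, cj_le_iff.2 h3⟩

/-- The centralizer of `⟨z1⟩ × V2` is `D1 × V2`. -/
theorem centE (hch : IsOfCharacteristicTwo (centralizer ({ψ zz} : Set G))) {y : G}
    (h1 : y * ψ z1 = ψ z1 * y) (h2 : y * ψ z2 = ψ z2 * y) (h3 : y * ψ v2 = ψ v2 * y) :
    y ∈ (pr D V).map ψ := by
  set Y := 𝐂[(pr Z V).map ψ] with hY
  have mY : ∀ y, y ∈ Y ↔ y * ψ z1 = ψ z1 * y ∧ y * ψ z2 = ψ z2 * y ∧ y * ψ v2 = ψ v2 * y := by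
    refine fun y => ⟨fun h => ?_, fun ⟨h1, h2, h3⟩ => mem_cent.2 ?_⟩
    · have := fun x hx => (mem_cent.1 h (ψ x) (mem_map_of_mem _ hx)).symm
      exact ⟨this _ (by decide +kernel), this _ (by decide +kernel), this _ (by decide +kernel)⟩
    · rintro _ ⟨x, hx, rfl⟩
      have : ∀ x ∈ pr Z V, ∃ i j k : Fin 2, x = z1 ^ i.val * z2 ^ j.val * v2 ^ k.val := by
        simp only [fa_pr]; decide +kernel
      obtain ⟨i, j, k, rfl⟩ := this x hx
      simp only [map_mul, map_pow]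
      exact (((Commute.pow_right h1 _).mul_right (Commute.pow_right h2 _)).mul_right
        (Commute.pow_right h3 _)).symm.eq
  have ofr : ∀ y ∈ Y, y ∈ ψ.range → y ∈ (pr D V).map ψ := by
    rintro _ hy ⟨w, rfl⟩
    obtain ⟨a, b, d⟩ := (mY _).1 hy
    exact mem_map_of_mem _ (of_cent_EE w (c.cm.1 a) (c.cm.1 b) (c.cm.1 d))
  have hAY : A.map ψ ≤ Y := by
    rintro _ ⟨x, hx, rfl⟩
    refine mem_cent.2 ?_
    rintro _ ⟨e, he, rfl⟩
    exact c.cm.2 (EE_comm x (A_le_DV x hx) e he)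
  set Hz := centralizer ({ψ zz} : Set G)
  set Q := pCoreOf 2 Hz
  have hYH : Y ≤ Hz := fun y hy => by
    obtain ⟨a, b, -⟩ := (mY _).1 hy
    rw [mem_centralizer_singleton_iff, show zz = z1 * z2 by decide +kernel, map_mul]
    exact (Commute.mul_right a b).eq
  have hQ : Q ≤ TT.map ψ := c.syl_zz.core_le
  have hET : (pr Z V).map ψ ≤ TT.map ψ := map_mono EE_le
  have hodd : ∀ y ∈ Y, (orderOf y).Coprime 2 → y ∈ (⊥ : Subgroup G) := by
    intro y hy hc
    have fin : ∀ X : Subgroup G, IsPGroup 2 X → y ∈ X → y ∈ (⊥ : Subgroup G) := fun X hX h => by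
      obtain ⟨k, hk⟩ := pg_iff.1 hX y h
      exact mem_of_pow_mem hc (k := k) (by rw [hk]; exact one_mem _)
    have nQ : y ∈ 𝐍[Q ⊓ Y] := norm_inf (hYH.trans (le_norm_core _)) (norm_of_le le_rfl) hy
    have nE : y ∈ 𝐍[(pr Z V).map ψ] := cent_le_norm _ hy
    by_cases hv : ψ v1 ∈ (Q ⊓ Y) ⊔ (pr Z V).map ψ
    · have hA : A.map ψ ≤ (Q ⊓ Y) ⊔ (pr Z V).map ψ := by
        rintro _ ⟨x, hx, rfl⟩
        rcases A_gen x hx with h | h
        · exact mem_sup_right (mem_map_of_mem _ h)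
        · simpa using mul_mem (inv_mem hv) (mem_sup_right (mem_map_of_mem ψ h))
      have n0 : y ∈ 𝐍[(Q ⊓ Y) ⊔ (pr Z V).map ψ] :=
        norm_sup (X := zpowers y) (zpowers_le.2 nQ) (zpowers_le.2 nE) (mem_zpowers y)
      exact fin _ (pg DV_le) (ofr y hy (c.wcA ((cj_le_of_norm hA n0).trans
        (sup_le (inf_le_left.trans hQ) hET))))
    · have key : Q ⊓ Y ≤ 𝐂[zpowers y] := fun q hq => by
        have hq' := conj_mem_of_norm nQ hq
        obtain ⟨a, ha, rfl⟩ := ofr _ hq.2 (map_le_range _ _ (hQ hq.1))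
        obtain ⟨b, hb, eb⟩ := ofr _ hq'.2 (map_le_range _ _ (hQ hq'.1))
        have cE : ∀ e ∈ pr Z V, Commute y (ψ e) := fun e he =>
          (mem_cent.1 hy _ (mem_map_of_mem _ he)).symm
        have nv : ∀ x : W, ψ x ∈ Q ⊓ Y → x⁻¹ * v1 ∉ pr Z V := fun x hx h => hv (by
          simpa using mul_mem (mem_sup_left hx) (mem_sup_right (mem_map_of_mem ψ h)))
        have : Commute y (ψ a) := by
          rcases quad a ha b hb with h | h | h | h | h | h
          · exact cE a h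
          · have := (cE b h).eq
            rw [eb] at this
            have e : y * ψ a * y⁻¹ = ψ a := by
              have h2 : y * (y * ψ a * y⁻¹) = y * ψ a := by rw [this]; group
              exact mul_left_cancel h2
            exact mul_inv_eq_iff_eq_mul.1 e
          · have e1 : y * ψ a * y⁻¹ = ψ (b * a⁻¹) * ψ a := by rw [← eb]; simp
            have e2 : y ^ 2 * ψ a * (y ^ 2)⁻¹ = ψ a := by
              calc y ^ 2 * ψ a * (y ^ 2)⁻¹ = y * (y * ψ a * y⁻¹) * y⁻¹ := by rw [sq]; group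
                _ = y * (ψ (b * a⁻¹) * ψ a) * y⁻¹ := by rw [e1]
                _ = (y * ψ (b * a⁻¹) * y⁻¹) * (y * ψ a * y⁻¹) := by simp only [mul_assoc, inv_mul_cancel_left]
                _ = ψ ((b * a⁻¹) * (b * a⁻¹)) * ψ a := by
                  rw [(cE _ h).eq, e1, map_mul ψ (b * a⁻¹)]; group
                _ = ψ a := by rw [EE_sq _ h]; simp
            have : y ∈ centralizer {ψ a} := mem_of_pow_mem hc (k := 1)
              (mem_centralizer_singleton_iff.2 (mul_inv_eq_iff_eq_mul.1 e2))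
            exact mem_centralizer_singleton_iff.1 this
          · exact absurd h (nv a hq)
          · exact absurd h (nv b (eb ▸ hq'))
          · exact absurd h (nv _ (by rw [map_mul, eb]; exact mul_mem hq hq'))
        refine mem_cent.2 fun x hx => ?_
        obtain ⟨i, rfl⟩ := mem_zpowers_iff.1 hx
        exact (this.zpow_left i).eq
      have := S0028.result 2 ((pr Z V).map ψ) (zpowers y) Q (pg EE_le)
        (by rwa [Nat.card_zpowers]) (pg_core _) (cent_comm (zpowers_le.2 hy))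
        ((hET.trans c.syl_zz.le).trans (le_norm_core _))
        ((zpowers_le.2 (hYH hy)).trans (le_norm_core _)) key
      have h5 : (⟨y, hYH hy⟩ : Hz) ∈ pCore 2 Hz := hch (mem_centralizer_iff.2 fun q hq =>
        Subtype.ext (mem_cent.1 (this (mem_zpowers y)) _ (mem_map_of_mem _ hq)))
      exact fin Q (pg_core _) (mem_map_of_mem _ h5)
  have hYp : IsPGroup 2 Y := pg_of_res_eq_bot (le_bot_iff.1 (res_le_iff.2 hodd))
  have hy := (mY y).2 ⟨h1, h2, h3⟩
  exact ofr y hy (c.two_le hYp hAY hy)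

end Ctx

end Cfsg.Agent.QT.Wr
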