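import Mathlib
import Cfsg.Agent.QT.QrcCub
import Cfsg.Agent.GT.CoprimeGen
import Cfsg.Agent.GT.CoprimeAbelian
import Cfsg.Agent.GT.ElemAbRep

/-! # Elementary abelian 2-groups acting on an elementary abelian group of order `p²`. -/

set_option autoImplicit false
set_option linter.unusedSectionVars false

namespace Cfsg.Agent.QT

open Cfsg Cfsg.Agent.GT Cfsg.Agent.Loc Cfsg.Agent.Loc.Mss Cfsg.Agent.Loc.Blk Subgroup
open scoped commutatorElement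

variable {G : Type*} [Group G] [Finite G] {p : ℕ}

theorem rI_le_two {H K : Subgroup G} (h : ∀ x ∈ K, ∀ y ∈ K, x ∉ H → y ∉ H → x * y ∈ H) :
    H.relIndex K ≤ 2 := by
  by_cases h0 : K ≤ H
  · rw [relIndex_eq_one.2 h0]; norm_num
  obtain ⟨a, ha, ha'⟩ := SetLike.not_le_iff_exists.1 h0
  refine (index_eq_two_iff.2 ⟨⟨a, ha⟩, fun b => ?_⟩).le
  by_cases hb : (b : G) ∈ H
  · exact Or.inr ⟨hb, fun l => ha' ((mul_mem_cancel_left hb).1 l)⟩
  · exact Or.inl ⟨h b b.2 a ha hb ha', hb⟩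

theorem eq_or_of_prime (hp : p.Prime) {Y Z : Subgroup G} (hY : Nat.card Y = p) (h : Z ≤ Y) :
    Z = ⊥ ∨ Z = Y :=
  ((Nat.dvd_prime hp).1 (hY ▸ card_dvd_of_le h)).imp card_eq_one.1 fun e =>
    Loc.eq_of_le_of_card_le h (hY.trans e.symm).le

theorem card_of_sq (hp : p.Prime) {E Y : Subgroup G} (hE : Nat.card E = p ^ 2) (h : Y ≤ E)
    (h1 : Y ≠ ⊥) (h2 : Y ≠ E) : Nat.card Y = p := by
  obtain ⟨k, hk, e⟩ := (Nat.dvd_prime_pow hp).1 (hE ▸ card_dvd_of_le h)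
  interval_cases k
  · exact absurd (card_eq_one.1 (by simpa using e)) h1
  · simpa using e
  · exact absurd (Loc.eq_of_le_of_card_le h (hE.trans e.symm).le) h2

theorem sup_eq_of_sq (hp : p.Prime) {E Y Z : Subgroup G} (hE : Nat.card E = p ^ 2) (hY : Y ≤ E)
    (hZ : Z ≤ E) (h1 : Y ≠ ⊥) (h2 : ¬ Z ≤ Y) : Y ⊔ Z = E := by
  by_contra hc
  have a1 := card_of_sq hp hE (sup_le hY hZ) (fun e => h1 (eq_bot_iff.2 (le_sup_left.trans e.le))) hc
  exact h2 (le_sup_right.trans ((eq_or_of_prime hp a1 le_sup_left).resolve_left h1).ge)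

theorem inv_of_fpf {Y : Subgroup G} {b : G} (hY : Y ≤ 𝐂[Y]) (hb : b ∈ 𝐍[Y]) (h2 : b ^ 2 = 1)
    (h : Y ⊓ 𝐂[zpowers b] = ⊥) {y : G} (hy : y ∈ Y) : b * y * b⁻¹ = y⁻¹ := by
  have h1 := conj_mem_of_norm hb hy
  have h3 := mem_cent.1 (hY hy) _ h1
  have h4 : b * y * b⁻¹ * y ∈ Y ⊓ 𝐂[zpowers b] := ⟨mul_mem h1 hy,
    cent_comm (zpowers_le.2 (mem_cent.2 fun u hu => by
      obtain ⟨k, rfl⟩ := hu
      refine (Commute.zpow_left ?_ k).eq
      have hb' : b⁻¹ = b := inv_eq_of_mul_eq_one_right (by rw [← sq, h2])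
      change b * y * b⁻¹ * y * b = b * (b * y * b⁻¹ * y)
      rw [hb'] at h3 ⊢
      calc b * y * b * y * b = b * (y * (b * y * b)) := by simp only [mul_assoc]
        _ = _ := by rw [h3])) (mem_zpowers _)⟩
  rw [h, mem_bot] at h4
  exact eq_inv_of_mul_eq_one_left h4

theorem rI_cent_le_two (hp : p.Prime) {Y A : Subgroup G} (hY : Nat.card Y = p) (hc : Y ≤ 𝐂[Y])
    (hA : ∀ a ∈ A, a ^ 2 = 1) (hn : A ≤ 𝐍[Y]) : (𝐂[Y]).relIndex A ≤ 2 := by
  have key : ∀ a ∈ A, a ∉ 𝐂[Y] → ∀ y ∈ Y, a * y * a⁻¹ = y⁻¹ := fun a ha ha' y hy =>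
    inv_of_fpf hc (hn ha) (hA a ha) ((eq_or_of_prime hp hY inf_le_left).resolve_right fun e =>
      ha' (cent_comm (e.ge.trans inf_le_right) (mem_zpowers a))) hy
  refine rI_le_two fun a ha b hb ha' hb' => mem_cent.2 fun y hy => ?_
  have h1 := key a ha ha' _ (inv_mem hy)
  have h2 := key b hb hb' y hy
  calc y * (a * b) = a * y⁻¹ * a⁻¹ * (a * b) := by rw [h1, inv_inv]
    _ = a * (b * y * b⁻¹) * a⁻¹ * (a * b) := by rw [h2]
    _ = a * b * y := by group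

theorem comm_mem_sup_cj {A : Subgroup G} {a : G} (ha : a ∈ A) (u : G) : ⁅u, a⁆ ∈ A ⊔ cj(u, A) :=
  mul_mem (mem_sup_right (conj_mem_cj ha)) (mem_sup_left (inv_mem ha))

theorem gen2 (hp : p.Prime) (h2 : p ≠ 2) {E T A : Subgroup G} (hE : IsElementaryAbelian p E)
    (hc : Nat.card E = p ^ 2) (hT : T ≤ 𝐍[E]) (irr : ∀ Y ≤ E, T ≤ 𝐍[Y] → Y = ⊥ ∨ Y = E)
    (hAT : A ≤ T) (hA : IsElementaryAbelian 2 A) (h0 : A ≠ ⊥) (hf : A ⊓ 𝐂[E] = ⊥) :
    ∃ u ∈ E, ∃ t ∈ T, (Nat.card A = 2 ∧ E ≤ A ⊔ cj(u, A) ⊔ cj(t, A ⊔ cj(u, A))) ∨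
      (Nat.card A = 4 ∧ E ≤ A ⊔ cj(u, A)) := by
  have := Fact.mk hp
  have hEc := ea_le_cent hE
  have hAE := hAT.trans hT
  have hm : ∀ a ∈ A, ∀ u ∈ E, ⁅u, a⁆ ∈ E := fun a ha u hu =>
    comm_le_left hAE (commutator_mem_commutator hu ha)
  have hne : ∀ a ∈ A, a ≠ 1 → ¬ E ≤ 𝐂[zpowers a] := fun a ha h1 l =>
    h1 (mem_bot.1 (hf.le ⟨ha, cent_comm l (mem_zpowers a)⟩))
  have hz : ∀ a u : G, ⁅u, a⁆ = 1 → u ∈ 𝐂[zpowers a] := fun a u h => mem_cent.2 fun v hv => by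
    obtain ⟨k, rfl⟩ := hv
    exact ((commutatorElement_eq_one_iff_commute.1 h).symm.zpow_left k).eq
  by_cases h4 : Nat.card A = 2
  · obtain ⟨a, ha, ha1⟩ := (A.bot_or_exists_ne_one).resolve_left h0
    obtain ⟨u, hu, hu'⟩ := SetLike.not_le_iff_exists.1 (hne a ha ha1)
    have x1 : zpowers ⁅u, a⁆ ≤ E := zpowers_le.2 (hm a ha u hu)
    have x2 : zpowers ⁅u, a⁆ ≠ ⊥ := fun e => hu' (hz a u (zpowers_eq_bot.1 e))
    have x3 : zpowers ⁅u, a⁆ ≠ E := fun e => by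
      have b1 := orderOf_dvd_of_pow_eq_one (hE.2 _ (hm a ha u hu))
      rw [← Nat.card_zpowers, e, hc] at b1
      have := Nat.le_of_dvd hp.pos b1
      have := hp.two_le
      nlinarith
    obtain ⟨t, ht, ht'⟩ : ∃ t ∈ T, ¬ cj(t, zpowers ⁅u, a⁆) ≤ zpowers ⁅u, a⁆ := by
      by_contra hcon
      push Not at hcon
      exact (irr _ x1 (norm_of_forall_cj_le hcon)).elim x2 x3
    have x4 : zpowers ⁅u, a⁆ ≤ A ⊔ cj(u, A) := zpowers_le.2 (comm_mem_sup_cj ha u)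
    exact ⟨u, hu, t, ht, Or.inl ⟨h4, (sup_eq_of_sq hp hc x1 (cj_le_of_norm x1 (hT ht)) x2 ht').ge.trans
      (sup_le_sup x4 (cj_mono t x4))⟩⟩
  obtain ⟨k, hk⟩ := IsPGroup.iff_card.1 hA.isPGroup
  have hcop : (Nat.card A).Coprime (Nat.card E) := by
    rw [hk, hc]
    exact Nat.Coprime.pow _ _ ((Nat.coprime_primes Nat.prime_two hp).2 h2.symm)
  have h3 : 2 < Nat.card A := by
    have : Nat.card A ≠ 1 := fun e => h0 (card_eq_one.1 e)
    have : 0 < Nat.card A := Nat.card_pos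
    omega
  obtain ⟨a, ha, ha1, ha2⟩ := CopAct.exists_inf_centralizer_ne_bot hA.1 (fun hcy => by
    have b1 := IsCyclic.exponent_eq_card (α := A)
    have b2 : Monoid.exponent A ∣ 2 := Monoid.exponent_dvd_of_forall_pow_eq_one
      fun g => Subtype.ext (hA.2 g g.2)
    have := Nat.le_of_dvd two_pos b2
    omega) hAE hcop (fun e => by
      rw [e, card_bot] at hc
      have := hp.two_le
      nlinarith)
  rw [← centralizer_closure, ← zpowers_eq_closure] at ha2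
  have hAa : A ≤ 𝐍[zpowers a] := norm_of_cent ((ea_le_cent hA).trans (cent_anti (zpowers_le.2 ha)))
  have hca : (Nat.card (zpowers a)).Coprime (Nat.card E) :=
    hcop.coprime_dvd_left (card_dvd_of_le (zpowers_le.2 ha))
  have haE : zpowers a ≤ 𝐍[E] := (zpowers_le.2 ha).trans hAE
  set E₁ := E ⊓ 𝐂[zpowers a] with hE₁
  set E₂ := ⁅E, zpowers a⁆ with hE₂
  have e1 : E₂ ≤ E := comm_le_left haE
  have e2 : E₂ ⊓ 𝐂[zpowers a] = ⊥ := CopAct.commutator_inf_centralizer_eq_bot hE.1 haE hca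
  have e3 : E₂ ≠ ⊥ := fun e => hne a ha ha1 (comm_eq_bot_iff.1 e)
  have c1 : Nat.card E₁ = p := card_of_sq hp hc inf_le_left ha2
    fun e => hne a ha ha1 (e.ge.trans inf_le_right)
  have e4 : ¬ E₂ ≤ E₁ := fun l => e3 (eq_bot_iff.2 ((le_inf le_rfl (l.trans inf_le_right)).trans e2.le))
  have c2 : Nat.card E₂ = p := card_of_sq hp hc e1 e3 fun e => ha2 (by rw [hE₁, ← e, e2])
  have e5 : E₁ ⊔ E₂ = E := sup_eq_of_sq hp hc inf_le_left e1 ha2 e4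
  have i1 := rI_cent_le_two hp c1 (inf_le_left.trans (hEc.trans (cent_anti inf_le_left))) hA.2
    (norm_inf hAE (norm_cent hAa))
  have i2 := rI_cent_le_two hp c2 (e1.trans (hEc.trans (cent_anti e1))) hA.2 (norm_comm hAE hAa)
  have i3 : Nat.card A ≤ 4 := by
    rw [← relIndex_bot_left]
    refine (rI_left (A := 𝐂[E₁] ⊓ 𝐂[E₂]) ?_).trans (relIndex_inf_le.trans (Nat.mul_le_mul i1 i2))
    rw [← cent_sup, e5, inf_comm, hf]
  have i4 : Nat.card A = 4 := by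
    rw [hk] at h3 i3 ⊢
    have : k < 3 := (Nat.pow_lt_pow_iff_right one_lt_two).1 (by omega)
    interval_cases k <;> simp_all
  obtain ⟨b, ⟨hb, hb2⟩, hb1⟩ := ((A ⊓ 𝐂[E₂]).bot_or_exists_ne_one).resolve_left fun e => by
    have := rI_card (𝐂[E₂]) A
    rw [e, card_bot] at this
    omega
  obtain ⟨x, hx, hx1⟩ := (E₁.bot_or_exists_ne_one).resolve_left ha2
  obtain ⟨y, hy, hy1⟩ := (E₂.bot_or_exists_ne_one).resolve_left e3
  have hxy := mem_cent.1 (hEc (e1 hy)) x hx.1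
  have f1 : ⁅x * y, a⁆ = ⁅y, a⁆ := by
    have := mem_cent.1 hx.2 a (mem_zpowers a)
    rw [hxy]
    calc ⁅y * x, a⁆ = y * (x * a) * x⁻¹ * y⁻¹ * a⁻¹ := by simp only [commutatorElement_def]; group
      _ = _ := by rw [← this]; simp only [commutatorElement_def]; group
  have f2 : ⁅x * y, b⁆ = ⁅x, b⁆ := by
    have := mem_cent.1 hb2 y hy
    calc ⁅x * y, b⁆ = x * (y * b) * y⁻¹ * x⁻¹ * b⁻¹ := by simp only [commutatorElement_def]; group
      _ = _ := by rw [this]; simp only [commutatorElement_def]; group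
  refine ⟨x * y, mul_mem hx.1 (e1 hy), 1, one_mem _, Or.inr ⟨i4, e5.ge.trans (sup_le ?_ ?_)⟩⟩
  · refine (Or.resolve_left (eq_or_of_prime hp c1 (inf_le_left (b := A ⊔ cj(x * y, A)))) fun e =>
      hb1 (mem_bot.1 (hf.le ⟨hb, ?_⟩))).ge.trans inf_le_right
    have g1 : ⁅x, b⁆ = 1 := mem_bot.1 (e.le ⟨comm_le_left (norm_inf hAE (norm_cent hAa))
      (commutator_mem_commutator hx hb), f2 ▸ comm_mem_sup_cj hb _⟩)
    have g2 := (eq_or_of_prime hp c1 (inf_le_left (b := 𝐂[zpowers b]))).resolve_left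
      fun e => hx1 (mem_bot.1 (e.le ⟨hx, hz b x g1⟩))
    rw [← e5, cent_sup]
    exact ⟨cent_comm (g2.ge.trans inf_le_right) (mem_zpowers b), hb2⟩
  · refine (Or.resolve_left (eq_or_of_prime hp c2 (inf_le_left (b := A ⊔ cj(x * y, A)))) fun e =>
      hy1 (mem_bot.1 (e2.le ⟨hy, hz a y (mem_bot.1 (e.le ⟨?_, f1 ▸ comm_mem_sup_cj ha _⟩))⟩))).ge.trans
      inf_le_right
    exact commutator_mem_commutator (e1 hy) (mem_zpowers a)

theorem card_dvd_gl8 {W H : Subgroup G} (hW : IsElementaryAbelian 2 W) (hc : Nat.card W ≤ 256)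
    (hH : H ≤ 𝐍[W]) (hf : H ⊓ 𝐂[W] = ⊥) :
    Nat.card H ∣ 2 ^ 28 * 3 ^ 5 * 5 ^ 2 * 7 ^ 2 * 17 * 31 * 127 := by
  obtain ⟨n, hn⟩ : ∃ n, Module.finrank (ZMod 2) (EAV hW) = n := ⟨_, rfl⟩
  have h := Matrix.card_GL_field (𝔽 := ZMod 2) n
  rw [ZMod.card, Nat.card_congr
    (Matrix.GeneralLinearGroup.toLin' (Module.finBasisOfFinrankEq _ (EAV hW) hn)).toEquiv] at h
  have h1 := card_dvd_of_injective (eaRep hW hH).toHomUnits fun a b e =>
    eaRep_injective hf (congrArg Units.val e)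
  have h2 := Module.natCard_eq_pow_finrank (K := ZMod 2) (V := EAV hW)
  rw [hn, Nat.card_zmod, EAV.card_eq] at h2
  have h3 : n < 9 := (Nat.pow_lt_pow_iff_right one_lt_two).1 (by omega)
  refine (h1.trans (dvd_of_eq h)).trans ?_
  interval_cases n <;> simp [Fin.prod_univ_succ]

end Cfsg.Agent.QT
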